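import Cfsg.Agent.Lib.Forms.SpOre3
import Cfsg.Agent.Lib.Forms.Center

/-!
Groups covered by the conjugates of two proper subgroups; symplectic groups in characteristic two.
-/

set_option autoImplicit false

namespace Cfsg.Agent.Forms

open Module

/-- covered by the conjugates of two proper subgroups -/
def Cov (G : Type*) [Group G] : Prop :=
  ∃ H K : Subgroup G, H ≠ ⊤ ∧ K ≠ ⊤ ∧ ∀ g : G, ∃ x : G, x * g * x⁻¹ ∈ H ∨ x * g * x⁻¹ ∈ K

/-- covered by the conjugates of two proper subgroups containing the centre -/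
def CovZ (G : Type*) [Group G] : Prop :=
  ∃ H K : Subgroup G, H ≠ ⊤ ∧ K ≠ ⊤ ∧ Subgroup.center G ≤ H ∧ Subgroup.center G ≤ K ∧
    ∀ g : G, (∃ y ∈ H, IsConj g y) ∨ ∃ y ∈ K, IsConj g y

theorem Cov.of_equiv {G G' : Type*} [Group G] [Group G'] (e : G ≃* G') (h : Cov G') : Cov G := by
  obtain ⟨H, K, h1, h2, h3⟩ := h
  have key : ∀ H : Subgroup G', H ≠ ⊤ → H.comap e.toMonoidHom ≠ ⊤ := fun H h e' =>
    h (eq_top_iff.2 fun x _ => by simpa using e'.ge (Subgroup.mem_top (e.symm x)))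
  refine ⟨_, _, key H h1, key K h2, fun g => ?_⟩
  obtain ⟨x, hx⟩ := h3 (e g)
  exact ⟨e.symm x, by simpa using hx⟩

theorem CovZ.quot {G : Type*} [Group G] (h : CovZ G) : Cov (G ⧸ Subgroup.center G) := by
  obtain ⟨H, K, h1, h2, h3, h4, h5⟩ := h
  have key : ∀ H : Subgroup G, H ≠ ⊤ → Subgroup.center G ≤ H →
      H.map (QuotientGroup.mk' (Subgroup.center G)) ≠ ⊤ := fun H h h' e => h (by
    rw [← Subgroup.comap_map_eq_self (f := QuotientGroup.mk' (Subgroup.center G)) (H := H)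
      (by rwa [QuotientGroup.ker_mk']), e, Subgroup.comap_top])
  refine ⟨_, _, key H h1 h3, key K h2 h4, fun g => ?_⟩
  obtain ⟨g, rfl⟩ := QuotientGroup.mk_surjective g
  rcases h5 g with ⟨y, hy, h⟩ | ⟨y, hy, h⟩ <;> obtain ⟨x, rfl⟩ := isConj_iff.1 h
  · exact ⟨x, .inl ⟨_, hy, rfl⟩⟩
  · exact ⟨x, .inr ⟨_, hy, rfl⟩⟩

theorem CovZ.quot' {G G' : Type*} [Group G] [Group G'] (e : G ≃* G') (h : CovZ G') :
    Cov (G ⧸ Subgroup.center G) := h.quot.of_equiv (centerQuotEquiv e)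

/-- the stabilizer of a function -/
def stabF (G : Type*) [Group G] {X Ω : Type*} [MulAction G X] (Q : X → Ω) : Subgroup G where
  carrier := {g | ∀ x, Q (g • x) = Q x}
  mul_mem' {a b} ha hb x := by rw [mul_smul, ha, hb]
  one_mem' x := by rw [one_smul]
  inv_mem' {a} ha x := by rw [← ha, smul_inv_smul]

theorem exists_stabF {G : Type*} [Group G] {X Ω : Type*} [MulAction G X] {Q Q' : X → Ω} {g : G}
    (h : ∀ v, Q' (g • v) = Q' v) (x : G) (hx : ∀ v, Q (x • v) = Q' v) :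
    ∃ y ∈ stabF G Q, IsConj g y :=
  ⟨x * g * x⁻¹, fun v => by rw [mul_smul, mul_smul, hx, h, ← hx, smul_inv_smul],
    isConj_iff.2 ⟨x, rfl⟩⟩

variable {F : Type*} [Field F] {V : Type*} [AddCommGroup V] [Module F V]

/-- Artin–Schreier map in characteristic two -/
def wp (h2 : (2 : F) = 0) : F →+ F where
  toFun t := t ^ 2 + t
  map_zero' := by simp
  map_add' a b := by linear_combination a * b * h2

theorem index_wp [Finite F] (h2 : (2 : F) = 0) : (wp h2).range.index = 2 := by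
  classical
  have h : ((wp h2).ker : Set F) = {0, 1} := by
    ext t
    change t ^ 2 + t = 0 ↔ t = 0 ∨ t = 1
    rw [← sub_eq_zero (a := t) (b := 1), ← mul_eq_zero]
    exact ⟨fun h => by linear_combination h - t * h2, fun h => by linear_combination h + t * h2⟩
  rw [AddSubgroup.index_range, ← SetLike.coe_sort_coe, h, Nat.card_coe_set_eq,
    Set.ncard_pair zero_ne_one]

theorem exists_not_mem_wp [Finite F] (h2 : (2 : F) = 0) :
    ∃ c, c ∉ (wp h2).range ∧ ∀ a, a ∈ (wp h2).range ∨ a + c ∈ (wp h2).range := by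
  obtain ⟨c, hc⟩ : ∃ c, c ∉ (wp h2).range := by
    by_contra h
    push Not at h
    have := index_wp h2
    rw [(AddSubgroup.eq_top_iff' _).2 h, AddSubgroup.index_top] at this
    omega
  exact ⟨c, hc, fun a => or_iff_not_imp_left.2 fun ha =>
    (AddSubgroup.add_mem_iff_of_index_two (index_wp h2)).2 (iff_of_false ha hc)⟩

namespace Form

/-- the translate of a quadratic form in characteristic two -/
def tw2 (h2 : (2 : F) = 0) (k : Form (Param.orth F) V) (v : V) : Form (Param.orth F) V :=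
  Form.ofQuad (fun x => k.Q x + k.B x v ^ 2) k.B (fun x y => by
    rw [orth_Q_add, B_add_left]; linear_combination k.B x v * k.B y v * h2) fun a x => by
    rw [orth_Q_smul, B_smul_left]; ring

variable [Fintype F] [FiniteDimensional F V] {f : Form (Param.sp F) V}

theorem Nondeg.exists_tw2 (hf : f.Nondeg) (h2 : (2 : F) = 0) {k : Form (Param.orth F) V}
    (hk : ∀ x y, k.B x y = f.B x y) (g : f.Isom) :
    ∃ v, ∀ x, (tw2 h2 k v).Q (g.1 x) = (tw2 h2 k v).Q x := by
  haveI : CharP F 2 := CharTwo.of_one_ne_zero_of_two_eq_zero one_ne_zero h2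
  let e := (frobeniusEquiv F 2).symm
  have he : ∀ a, e a ^ 2 = a := (frobeniusEquiv F 2).apply_symm_apply
  obtain ⟨w, hw⟩ := hf.exists_repr
    { toFun := fun x => e (k.Q (g.1 x) - k.Q x)
      map_add' := fun x y => by
        rw [← map_add, map_add g.1, orth_Q_add, orth_Q_add, hk, hk, Isom.map_B]
        congr 1; ring
      map_smul' := fun a x => (frobeniusEquiv F 2).injective (by
        change _ ^ 2 = (a * _) ^ 2
        rw [he, mul_pow, he, map_smul, orth_Q_smul, orth_Q_smul]; ring) }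
  replace hw : ∀ x, f.B x w = e (k.Q (g.1 x) - k.Q x) := hw
  obtain ⟨v, hv⟩ : w ∈ Isom.res g⁻¹ := by
    rw [← hf.orth_fix, Isom.fix_inv, mem_orth']
    intro x hx
    rw [hw, Isom.mem_fix.1 hx, sub_self, map_zero]
  refine ⟨v, fun x => ?_⟩
  have h1 := he (k.Q (g.1 x) - k.Q x)
  rw [← hw, ← hv, Isom.N_apply, B_sub_right, ← Isom.B_left] at h1
  change k.Q _ + k.B _ _ ^ 2 = k.Q _ + k.B _ _ ^ 2
  rw [hk, hk]
  linear_combination -h1 + (f.B (g.1 x) v ^ 2 - f.B (g.1 x) v * f.B x v) * h2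

omit [Fintype F] [FiniteDimensional F V] in
theorem exists_map_tw2 (h2 : (2 : F) = 0) {k : Form (Param.orth F) V}
    (hk : ∀ x y, k.B x y = f.B x y) {v : V} (hv : k.Q v ∈ (wp h2).range) :
    ∃ x : f.Isom, ∀ y, k.Q (x.1 y) = k.Q y + k.B y v ^ 2 := by
  obtain ⟨l, h0, hl⟩ : ∃ l : F, l ≠ 0 ∧ l ^ 2 * k.Q v + l = 1 := by
    obtain ⟨t, ht⟩ := hv
    change t ^ 2 + t = _ at ht
    by_cases h : k.Q v = 0
    · exact ⟨1, one_ne_zero, by simp [h]⟩
    · exact ⟨t / k.Q v, div_ne_zero (fun e => h (by simp [← ht, e])) h, by field_simp; linear_combination ht⟩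
  refine ⟨f.qrefl v l⁻¹ (f.sp_isLam _ _) (inv_ne_zero h0), fun y => ?_⟩
  rw [qrefl_apply, inv_inv, orth_Q_sub, orth_Q_smul, orth_B_smul_right, hk]
  linear_combination f.B y v ^ 2 * hl - l * f.B y v ^ 2 * h2

theorem Nondeg.covZ_sp_two (hf : f.Nondeg) (h2 : (2 : F) = 0) (k : Form (Param.orth F) V)
    (hk : ∀ x y, k.B x y = f.B x y) (h3 : 3 ≤ finrank F V) : CovZ f.Isom := by
  have h4 : ∀ k : Form (Param.orth F) V, (∀ x y, k.B x y = f.B x y) → k.Nondeg :=
    fun k hk x hx => hf x fun y => (hk x y).symm.trans (hx y)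
  haveI : Nontrivial V := finrank_pos_iff.1 (by omega : 0 < finrank F V)
  have key : ∀ k : Form (Param.orth F) V, (∀ x y, k.B x y = f.B x y) →
      stabF f.Isom k.Q ≠ ⊤ ∧ Subgroup.center f.Isom ≤ stabF f.Isom k.Q := fun k hk => by
    obtain ⟨u, h0, hu⟩ := (h4 k hk).orth_exists_singular h3
    obtain ⟨x, hx⟩ := exists_map_tw2 h2 hk (v := u) (hu ▸ zero_mem _)
    obtain ⟨y, hy⟩ := (h4 k hk).exists_eq_one h0
    refine ⟨fun e => ?_, fun z hz v => ?_⟩
    · have := (hx y).symm.trans (e.ge (Subgroup.mem_top x) y)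
      simp [k.orth_symm u y, hy] at this
    · obtain ⟨c, hc⟩ := (hf.sp_mem_center_iff z).1 hz
      have := Isom.map_B z u y
      rw [hc, hc, B_smul_left, sp_B_smul_right, ← hk, hy, mul_one] at this
      exact (congrArg k.Q (hc v)).trans (by rw [orth_Q_smul, this, one_mul])
  obtain ⟨c, -, hc⟩ := exists_not_mem_wp h2
  obtain ⟨w, hw⟩ := (h4 k hk).orth_exists_Q_eq (by omega) c
  refine ⟨_, _, (key k hk).1, (key (tw2 h2 k w) hk).1, (key k hk).2, (key (tw2 h2 k w) hk).2,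
    fun g => ?_⟩
  obtain ⟨v, hv⟩ := hf.exists_tw2 h2 hk g
  rcases hc (k.Q v) with h | ⟨t, ht⟩
  · obtain ⟨x, hx⟩ := exists_map_tw2 h2 hk h
    exact .inl (exists_stabF hv x hx)
  · obtain ⟨x, hx⟩ := exists_map_tw2 (k := tw2 h2 k w) (v := v + w) h2 hk ⟨t + k.B v w, by
      change _ = k.Q _ + k.B _ _ ^ 2
      rw [map_add, ht, orth_Q_add, B_add_left, hw, hk w w, sp_B_self, add_zero]
      change _ + (k.B v w ^ 2 + k.B v w) = _
      ring⟩
    refine .inr (exists_stabF hv x fun y => (hx y).trans ?_)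
    change k.Q _ + k.B _ _ ^ 2 + k.B _ _ ^ 2 = k.Q _ + k.B _ _ ^ 2
    rw [B_add_right]
    linear_combination (k.B y w ^ 2 + k.B y v * k.B y w) * h2

end Form

theorem cov_PSp_two [Fintype F] (h2 : (2 : F) = 0) {m : ℕ} (hm : 2 ≤ m) : Cov (PSp m F) :=
  ((spForm_nondeg m).covZ_sp_two h2 (plusForm m F) (fun x y => by
    rw [plusForm_B, spForm_B']
    exact Finset.sum_congr rfl fun i _ => by linear_combination x (.inl i) * y (.inr i) * h2)
    (by simp; omega)).quot' (spEquiv m F)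

end Cfsg.Agent.Forms
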