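import Cfsg.Agent.Lib.Forms.Cov1
import Cfsg.Prelude.Def_G2

/-!
`G₂(q)`, `q` even, is covered by the stabilizers of quadratic subalgebras.
-/

set_option autoImplicit false

namespace Cfsg.Agent.Forms

open Module Matrix Cfsg.Lie

variable {F : Type*} [Field F]

/-- the unit octonion -/
def zOne : Fin 8 → F := ![1, 0, 0, 0, 0, 0, 0, 1]

/-- the norm form -/
def zForm (F : Type*) [Field F] : Form (Param.orth F) (Fin 8 → F) :=
  Form.ofQuad (fun x => x 0 * x 7 - (x 1 * x 4 + x 2 * x 5 + x 3 * x 6))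
    (LinearMap.mk₂ F (fun x y => x 0 * y 7 + x 7 * y 0 -
        (x 1 * y 4 + x 4 * y 1 + x 2 * y 5 + x 5 * y 2 + x 3 * y 6 + x 6 * y 3))
      (fun _ _ _ => by simp; ring) (fun _ _ _ => by simp; ring) (fun _ _ _ => by simp; ring)
      fun _ _ _ => by simp; ring) (fun _ _ => by simp; ring) fun _ _ => by simp; ring

theorem zForm_B (x y : Fin 8 → F) : (zForm F).B x y = x 0 * y 7 + x 7 * y 0 -
    (x 1 * y 4 + x 4 * y 1 + x 2 * y 5 + x 5 * y 2 + x 3 * y 6 + x 6 * y 3) := rfl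

theorem zForm_Q (x : Fin 8 → F) :
    (zForm F).Q x = x 0 * x 7 - (x 1 * x 4 + x 2 * x 5 + x 3 * x 6) := rfl

theorem zForm_nondeg : (zForm F).Nondeg := fun x hx => by
  have h := fun i => hx (Pi.single i 1)
  have h0 := h 0; have h1 := h 1; have h2 := h 2; have h3 := h 3
  have h4 := h 4; have h5 := h 5; have h6 := h 6; have h7 := h 7
  simp [zForm_B] at h0 h1 h2 h3 h4 h5 h6 h7
  ext i; fin_cases i <;> assumption

theorem zorn_one_mul (x : Fin 8 → F) : zornMul zOne x = x := by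
  ext i; fin_cases i <;> simp [zornMul, zOne, dot3, cross3]

theorem zorn_mul_one (x : Fin 8 → F) : zornMul x zOne = x := by
  ext i; fin_cases i <;> simp [zornMul, zOne, dot3, cross3]

theorem zorn_sq (x : Fin 8 → F) :
    zornMul x x = (zForm F).B x zOne • x - (zForm F).Q x • zOne := by
  ext i; fin_cases i <;> simp [zornMul, zOne, dot3, cross3, zForm_B, zForm_Q] <;> ring

instance g2Action : MulAction (G2 F) (Fin 8 → F) where
  smul g x := (g.1 : Matrix (Fin 8) (Fin 8) F) *ᵥ x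
  one_smul := one_mulVec
  mul_smul _ _ _ := (mulVec_mulVec _ _ _).symm

theorem g2_smul (g : G2 F) (x : Fin 8 → F) : g • x = (g.1 : Matrix (Fin 8) (Fin 8) F) *ᵥ x := rfl

theorem g2_mul (g : G2 F) (x y : Fin 8 → F) : g • zornMul x y = zornMul (g • x) (g • y) := g.2 x y

theorem g2_one (g : G2 F) : g • (zOne : Fin 8 → F) = zOne := by
  have := g2_mul g zOne (g⁻¹ • zOne)
  rw [zorn_one_mul, smul_inv_smul, zorn_mul_one] at this
  exact this.symm

theorem g2_lin (g : G2 F) (a b : F) (y : Fin 8 → F) :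
    g • (a • y - b • zOne) = a • g • y - b • zOne := by
  conv_rhs => rw [← g2_one g]
  simp only [g2_smul, mulVec_sub, mulVec_smul]

theorem g2_Q (g : G2 F) (x : Fin 8 → F) : (zForm F).Q (g • x) = (zForm F).Q x := by
  have h := g2_mul g x x
  rw [zorn_sq, zorn_sq, g2_lin] at h
  by_cases e : (zForm F).B x zOne = (zForm F).B (g • x) zOne
  · rw [e] at h
    simpa [zOne] using congrFun h.symm 0
  · obtain ⟨c, hc⟩ : ∃ c : F, g • x = c • zOne := ⟨((zForm F).Q x - (zForm F).Q (g • x)) /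
      ((zForm F).B x zOne - (zForm F).B (g • x) zOne), by
        rw [div_eq_inv_mul, mul_smul, eq_inv_smul_iff₀ (sub_ne_zero.2 e), sub_smul, sub_smul,
          sub_eq_sub_iff_sub_eq_sub, h]⟩
    rw [hc, MulAction.injective g (hc.trans (show _ = g • c • zOne by
      simpa [g2_one] using (g2_lin g c 0 zOne).symm))]

/-- the orthogonal transformation of an automorphism -/
noncomputable def g2Isom (g : G2 F) : (zForm F).Isom :=
  Form.Isom.ofEnd zForm_nondeg (toLin' (g.1 : Matrix (Fin 8) (Fin 8) F))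
    (Form.orth_isIsom (g2_Q g))

theorem g2_exists (h2 : (2 : F) = 0) (g : G2 F) :
    ∃ w, (zForm F).B zOne w = 1 ∧ g • w - w ∈ F ∙ (zOne : Fin 8 → F) := by
  obtain ⟨w, h3, h4⟩ := zForm_nondeg.exists_orth_eq_one (x := (zOne : Fin 8 → F))
    (S := ((zForm F).orth (F ∙ zOne)).map (Form.Isom.N (g2Isom g)⁻¹)) (by
      rintro ⟨x, hx, e⟩
      have := Form.Isom.map_Q (g2Isom g)⁻¹ x
      rw [Form.Isom.N_apply, sub_eq_iff_eq_add'] at e
      rw [e, Form.orth_Q_add, Form.mem_orth_singleton.1 hx] at this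
      simp [zForm_Q, zOne] at this)
  refine ⟨w, h4, ?_⟩
  rw [← zForm_nondeg.orth_orth (F ∙ zOne), Form.mem_orth']
  intro y hy
  have := h3 _ ⟨y, hy, rfl⟩
  rwa [Form.Isom.N_apply, Form.B_sub_left, ← Form.Isom.B_right, ← Form.B_sub_right] at this

/-- being in the same orbit -/
def ZR (x y : Fin 8 → F) : Prop := ∃ g : G2 F, g • x = y

theorem ZR.trans {x y z : Fin 8 → F} (h : ZR x y) (h' : ZR y z) : ZR x z := by
  obtain ⟨g, rfl⟩ := h
  obtain ⟨k, rfl⟩ := h'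
  exact ⟨k * g, mul_smul _ _ _⟩

theorem zr_of (A B : Matrix (Fin 8) (Fin 8) F) (h : A * B = 1)
    (hA : ∀ x y, A *ᵥ zornMul x y = zornMul (A *ᵥ x) (A *ᵥ y)) (x : Fin 8 → F) : ZR x (A *ᵥ x) :=
  ⟨⟨⟨A, B, h, mul_eq_one_comm.1 h⟩, hA⟩, rfl⟩

theorem zr_of' (φ ψ : (Fin 8 → F) →ₗ[F] (Fin 8 → F)) (h : ∀ x, φ (ψ x) = x)
    (hA : ∀ x y, φ (zornMul x y) = zornMul (φ x) (φ y)) (x : Fin 8 → F) : ZR x (φ x) := by
  simpa using zr_of (LinearMap.toMatrix' φ) (LinearMap.toMatrix' ψ) (by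
    rw [← LinearMap.toMatrix'_comp, show φ ∘ₗ ψ = LinearMap.id from LinearMap.ext h,
      LinearMap.toMatrix'_id]) (by simpa using hA) x

/-- short root elements -/
def zD (r s t : F) : (Fin 8 → F) →ₗ[F] (Fin 8 → F) where
  toFun x := ![x 0 - (r * x 4 + s * x 5 + t * x 6),
    x 1 + (x 0 - x 7 - (r * x 4 + s * x 5 + t * x 6)) * r,
    x 2 + (x 0 - x 7 - (r * x 4 + s * x 5 + t * x 6)) * s,
    x 3 + (x 0 - x 7 - (r * x 4 + s * x 5 + t * x 6)) * t,
    x 4 - (x 2 * t - x 3 * s), x 5 - (x 3 * r - x 1 * t), x 6 - (x 1 * s - x 2 * r),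
    x 7 + (r * x 4 + s * x 5 + t * x 6)]
  map_add' _ _ := by ext i; fin_cases i <;> simp <;> ring
  map_smul' _ _ := by ext i; fin_cases i <;> simp <;> ring

/-- monomial and long root elements -/
def zE (r s t : F) : (Fin 8 → F) →ₗ[F] (Fin 8 → F) where
  toFun x := ![x 0, r * (x 1 + s * x 2 + t * x 3), r⁻¹ * x 2, x 3, r⁻¹ * x 4, r * (x 5 - s * x 4),
    x 6 - t * x 4, x 7]
  map_add' _ _ := by ext i; fin_cases i <;> simp <;> ring
  map_smul' _ _ := by ext i; fin_cases i <;> simp <;> ring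

/-- a cyclic permutation -/
def zC : (Fin 8 → F) →ₗ[F] (Fin 8 → F) where
  toFun x := ![x 0, x 2, x 3, x 1, x 5, x 6, x 4, x 7]
  map_add' _ _ := by ext i; fin_cases i <;> simp
  map_smul' _ _ := by ext i; fin_cases i <;> simp

/-- the swap -/
def zW : (Fin 8 → F) →ₗ[F] (Fin 8 → F) where
  toFun x := ![x 7, -x 4, -x 5, -x 6, -x 1, -x 2, -x 3, x 0]
  map_add' _ _ := by ext i; fin_cases i <;> simp <;> ring
  map_smul' _ _ := by ext i; fin_cases i <;> simp

theorem zr_D (r s t : F) (x : Fin 8 → F) : ZR x (zD r s t x) :=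
  zr_of' _ (zD (-r) (-s) (-t)) (fun x => by ext i; fin_cases i <;> simp [zD] <;> ring)
    (fun x y => by ext i; fin_cases i <;> simp [zD, zornMul, dot3, cross3] <;> ring) x

theorem zr_E {r : F} (h : r ≠ 0) (s t : F) (x : Fin 8 → F) : ZR x (zE r s t x) :=
  zr_of' _ (zE 1 (-s) (-t) ∘ₗ zE r⁻¹ 0 0)
    (fun x => by ext i; fin_cases i <;> simp [zE] <;> (field_simp; try ring))
    (fun x y => by ext i; fin_cases i <;> simp [zE, zornMul, dot3, cross3] <;> field_simp <;> ring) x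

theorem zr_C (x : Fin 8 → F) : ZR x (zC x) :=
  zr_of' _ (zC ∘ₗ zC) (fun x => by ext i; fin_cases i <;> simp [zC])
    (fun x y => by ext i; fin_cases i <;> simp [zC, zornMul, dot3, cross3] <;> ring) x

theorem zr_W (x : Fin 8 → F) : ZR x (zW x) :=
  zr_of' _ zW (fun x => by ext i; fin_cases i <;> simp [zW])
    (fun x y => by ext i; fin_cases i <;> simp [zW, zornMul, dot3, cross3] <;> ring) x

theorem ZR.Q {x y : Fin 8 → F} (h : ZR x y) : (zForm F).Q y = (zForm F).Q x := by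
  obtain ⟨g, rfl⟩ := h
  exact g2_Q g x

theorem ZR.B {x y : Fin 8 → F} (h : ZR x y) : (zForm F).B zOne y = (zForm F).B zOne x := by
  obtain ⟨g, rfl⟩ := h
  conv_lhs => rw [← g2_one g]
  exact Form.Isom.map_B (g2Isom g) _ _

theorem zr_norm {x : Fin 8 → F} (h : x 4 ≠ 0 ∨ x 5 ≠ 0 ∨ x 6 ≠ 0) :
    ∃ y, ZR x y ∧ y 0 = x 0 ∧ y 4 = 1 ∧ y 5 = 0 ∧ y 6 = 0 := by
  have key : ∀ x : Fin 8 → F, x 4 ≠ 0 → ∃ y, ZR x y ∧ y 0 = x 0 ∧ y 4 = 1 ∧ y 5 = 0 ∧ y 6 = 0 :=
    fun x h => ⟨_, zr_E h (x 5 / x 4) (x 6 / x 4) x, by simp [zE, h]⟩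
  rcases h with h | h | h
  · exact key x h
  · obtain ⟨y, h1, h2⟩ := key (zC x) h
    exact ⟨y, (zr_C x).trans h1, h2⟩
  · obtain ⟨y, h1, h2⟩ := key (zC (zC x)) h
    exact ⟨y, ((zr_C x).trans (zr_C _)).trans h1, h2⟩

theorem zr_std (h2 : (2 : F) = 0) {x : Fin 8 → F} (h : (zForm F).B zOne x = 1) :
    ZR x ![0, (zForm F).Q x, 0, 0, 1, 0, 0, 1] := by
  have hB : ∀ x : Fin 8 → F, (zForm F).B zOne x = x 7 + x 0 := fun x => by simp [zForm_B, zOne]
  obtain ⟨y, a1, a2⟩ : ∃ y, ZR x y ∧ (y 4 ≠ 0 ∨ y 5 ≠ 0 ∨ y 6 ≠ 0) := by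
    by_cases e : x 4 ≠ 0 ∨ x 5 ≠ 0 ∨ x 6 ≠ 0
    · exact ⟨x, ⟨1, one_smul _ _⟩, e⟩
    · push Not at e
      refine ⟨_, (zr_D (1 - x 1) 0 0 x).trans (zr_W _), .inl ?_⟩
      have : x 0 - x 7 = 1 := by linear_combination h - hB x - x 7 * h2
      simp [zD, zW, e, this]
  obtain ⟨z, b1, -, b2, b3, b4⟩ := zr_norm a2
  obtain ⟨w, c1, c2, c3, c4, c5⟩ := zr_norm (x := zD (z 0) 0 0 z) (.inl (by simp [zD, b2]))
  have d1 := ((a1.trans b1).trans (zr_D _ _ _ _)).trans c1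
  have d2 : w 0 = 0 := by simp [c2, zD, b2]
  have d3 : w 7 = 1 := by simpa [hB, d2] using d1.B.trans h
  have d4 : (zForm F).Q x = -w 1 := by simp [← d1.Q, zForm_Q, d2, c3, c4, c5]
  convert (d1.trans (zr_D 0 (w 2) (w 3) w)).trans (zr_E one_ne_zero (w 1 * w 3) (-(w 1 * w 2)) _)
    using 1
  ext i; fin_cases i <;> simp [zD, zE, d2, d3, d4, c3, c4, c5]
  · linear_combination -w 1 * h2
  all_goals ring

theorem cov_G2 [Fintype F] (h2 : (2 : F) = 0) : Cov (G2 F) := by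
  obtain ⟨c, -, hc⟩ := exists_not_mem_wp h2
  let H : F → Subgroup (G2 F) := fun c => stabF (G2 F) fun x : Fin 8 → F =>
    ∃ a b : F, x = a • ![0, c, 0, 0, 1, 0, 0, 1] - b • zOne
  have h1 : ∀ c, H c ≠ ⊤ := fun c e => by
    obtain ⟨g, hg⟩ := zr_C (![0, c, 0, 0, 1, 0, 0, 1] : Fin 8 → F)
    obtain ⟨a, b, h⟩ := (e.ge (Subgroup.mem_top g) _).ge ⟨1, 0, by rw [one_smul, zero_smul, sub_zero]⟩
    simpa [zC, zOne] using congrFun (hg.symm.trans h) 6
  refine ⟨H 0, H c, h1 0, h1 c, fun g => ?_⟩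
  obtain ⟨w, h3, h4⟩ := g2_exists h2 g
  have key : ∀ c t : F, t ^ 2 + t = (zForm F).Q w + c → ∃ x, x * g * x⁻¹ ∈ H c := fun c t ht => by
    have h5 : (zForm F).B zOne (w + t • zOne) = 1 := by
      rw [Form.B_add_right, h3, Form.orth_B_smul_right, Form.orth_B_self, h2]; simp
    obtain ⟨x, hx⟩ := zr_std h2 h5
    rw [show (zForm F).Q (w + t • zOne) = c by
      rw [Form.orth_Q_add, Form.orth_B_smul_right, Form.orth_symm, h3, Form.orth_Q_smul,
        show (zForm F).Q zOne = 1 by simp [zForm_Q, zOne]]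
      linear_combination ht + (zForm F).Q w * h2] at hx
    obtain ⟨s, hs⟩ := Submodule.mem_span_singleton.1 h4
    have h6 : g • (w + t • zOne) = w + t • zOne + s • zOne := by
      have := g2_lin g 1 (-t) w
      simp only [one_smul, neg_smul, sub_neg_eq_add] at this
      rw [this, hs]; abel
    obtain ⟨y, hy, h7⟩ := exists_stabF (g := g) (Q := fun x : Fin 8 → F =>
      ∃ a b : F, x = a • ![0, c, 0, 0, 1, 0, 0, 1] - b • zOne) (Q' := fun v => ∃ a b : F,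
      v = a • (w + t • zOne) - b • zOne) (fun v => propext ⟨fun ⟨a, b, h⟩ => ⟨a, b + a * s,
        MulAction.injective g (h.trans (by simp only [g2_lin, h6]; module))⟩, fun ⟨a, b, h⟩ =>
          ⟨a, b - a * s, by rw [h, g2_lin, h6]; module⟩⟩) x fun v => propext
      (exists_congr fun a => exists_congr fun b => by
        rw [← hx, ← g2_lin, (MulAction.injective x).eq_iff])
    obtain ⟨x, rfl⟩ := isConj_iff.1 h7
    exact ⟨x, hy⟩
  rcases hc ((zForm F).Q w) with ⟨t, ht⟩ | ⟨t, ht⟩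
  · exact (key 0 t (by rwa [add_zero])).imp fun _ => .inl
  · exact (key c t ht).imp fun _ => .inr

end Cfsg.Agent.Forms
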