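import Cfsg.Agent.Lib.Forms.Cov1

/-!
`PSL_n(q)`, `n ≤ 4`, is covered by point stabilizers and field extension subgroups.
-/

set_option autoImplicit false

namespace Cfsg.Agent.Forms

open Module Polynomial GLn Matrix

variable {F : Type*} [Field F]

theorem exists_forall_dvd_aeval (h : F[X]) (s : Multiset F[X])
    (hs : ∀ r ∈ s, Irreducible r ∧ ∃ y : F[X], r ∣ aeval y h) : ∃ y : F[X], ∀ r ∈ s, r ∣ aeval y h := by
  have key : ∀ {r a b : F[X]}, r ∣ a - b → r ∣ aeval b h → r ∣ aeval a h := fun {r a b} h1 h2 => by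
    have := h1.trans (sub_dvd_eval_sub a b (h.map (algebraMap F F[X])))
    rw [eval_map_algebraMap, eval_map_algebraMap] at this
    simpa using this.add h2
  induction s using Multiset.induction_on with
  | empty => exact ⟨0, by simp⟩
  | cons r s ih =>
    obtain ⟨y, hy⟩ := ih fun r hr => hs r (Multiset.mem_cons_of_mem hr)
    obtain ⟨h1, z, hz⟩ := hs r (Multiset.mem_cons_self r s)
    by_cases e : r ∣ s.prod
    · obtain ⟨a, ha, e⟩ := h1.prime.exists_mem_multiset_dvd e
      exact ⟨y, Multiset.forall_mem_cons.2 ⟨e.trans (hy a ha), hy⟩⟩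
    · obtain ⟨α, β, e⟩ := h1.coprime_iff_not_dvd.2 e
      exact ⟨z * β * s.prod + y * α * r, Multiset.forall_mem_cons.2
        ⟨key ⟨α * (y - z), by linear_combination z * e⟩ hz, fun a ha => key
          ((Multiset.dvd_prod ha).trans ⟨β * (z - y), by linear_combination y * e⟩) (hy a ha)⟩⟩

variable [Fintype F]

theorem exists_dvd_aeval {h r : F[X]} (hh : Irreducible h) (hr : Irreducible r)
    (hd : h.natDegree ∣ r.natDegree) : ∃ y : F[X], r ∣ aeval y h := by
  haveI := Fact.mk hh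
  haveI := Fact.mk hr
  haveI := (AdjoinRoot.powerBasis hr.ne_zero).finite
  haveI : Finite (AdjoinRoot r) := Module.finite_of_finite F
  obtain ⟨φ⟩ := FiniteField.nonempty_algHom_of_finrank_dvd (F := F) (K := AdjoinRoot h)
    (L := AdjoinRoot r) (by rwa [(AdjoinRoot.powerBasis hr.ne_zero).finrank,
      (AdjoinRoot.powerBasis hh.ne_zero).finrank])
  obtain ⟨y, hy⟩ := AdjoinRoot.mk_surjective (φ (AdjoinRoot.root h))
  refine ⟨y, AdjoinRoot.mk_eq_zero.1 ?_⟩
  rw [← AdjoinRoot.aeval_eq, ← aeval_algHom_apply (aeval (AdjoinRoot.root r)), AdjoinRoot.aeval_eq,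
    hy, aeval_algHom_apply, AdjoinRoot.aeval_eq, AdjoinRoot.mk_self, map_zero]

theorem exists_aeval_root {A : Type*} [Ring A] [Algebra F A] {a : A} {h μ : F[X]}
    (hh : Irreducible h) (h0 : μ ≠ 0) (hμ : aeval a μ = 0)
    (hd : ∀ r, Irreducible r → r ∣ μ → h.natDegree ∣ r.natDegree) :
    ∃ y : F[X], aeval (aeval a y) h = 0 := by
  obtain ⟨s, h1, h2⟩ := UniqueFactorizationMonoid.exists_prime_factors μ h0
  obtain ⟨y, hy⟩ := exists_forall_dvd_aeval h s fun r hr => ⟨(h1 r hr).irreducible,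
    exists_dvd_aeval hh (h1 r hr).irreducible
      (hd r (h1 r hr).irreducible ((Multiset.dvd_prod hr).trans h2.dvd))⟩
  have h3 : ∀ k, aeval (y ^ Fintype.card F ^ k) h = aeval y h ^ Fintype.card F ^ k := fun k => by
    induction k with
    | zero => simp
    | succ k ih =>
      rw [pow_succ, pow_mul, pow_mul, ← ih]
      exact aeval_algHom_apply (FiniteField.frobeniusAlgHom F F[X]) _ h
  obtain ⟨c, hc⟩ : μ ∣ aeval (y ^ Fintype.card F ^ s.card) h := by
    rw [h3]
    refine (h2.symm.dvd.trans ?_).trans (pow_dvd_pow _ (Nat.lt_pow_self Fintype.one_lt_card).le)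
    simpa using Multiset.prod_dvd_prod_of_dvd (S := s) id (fun _ => aeval y h) hy
  exact ⟨_, by rw [aeval_algHom_apply (aeval a), hc, map_mul, hμ, zero_mul]⟩

theorem exists_irreducible_natDegree {d : ℕ} (hd : d ≠ 0) :
    ∃ h : F[X], h.Monic ∧ Irreducible h ∧ h.natDegree = d := by
  obtain ⟨p, hp⟩ := CharP.exists F
  have := Fact.mk (CharP.char_is_prime F p)
  have := NeZero.mk hd
  obtain ⟨α, hα⟩ := Field.exists_primitive_element F (FiniteField.Extension F p d)
  have h := Algebra.IsIntegral.isIntegral (R := F) α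
  exact ⟨_, minpoly.monic h, minpoly.irreducible h,
    ((Field.primitive_element_iff_minpoly_natDegree_eq F α).1 hα).trans
      (FiniteField.finrank_extension F p d)⟩

omit [Fintype F] in
theorem typ_eq_replicate {n : Type*} [Fintype n] [DecidableEq n] {A : Matrix n n F} {h : F[X]}
    (hm : h.Monic) (hh : Irreducible h) (hA : aeval A h = 0) :
    typ A = Multiset.replicate (Fintype.card n / h.natDegree) (h, 1) := by
  have h1 : typ A = Multiset.replicate (typ A).card (h, 1) :=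
    Multiset.eq_replicate_card.2 fun ⟨r, i⟩ hx => by
      obtain ⟨h2, h3, h4⟩ : r.Monic ∧ Irreducible r ∧ 0 < i := valid_typ A _ hx
      have h5 : r ^ i ∣ h := (aeval_eq_zero_iff_typ A h).1 hA _ hx
      obtain rfl := eq_of_monic_of_associated h2 hm
        (h3.associated_of_dvd hh ((dvd_pow_self r h4.ne').trans h5))
      have := (pow_dvd_pow_iff h3.ne_zero h3.not_isUnit).1 (h5.trans (pow_one r).symm.dvd)
      rw [show i = 1 by omega]
  rw [← wt_typ A, h1]
  simp [wt, hh.natDegree_pos]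

theorem covZ_SL {n d : ℕ} (hd : 2 ≤ d) (hdn : d ∣ n) (hn : 0 < n)
    (H : ∀ a b, 2 ≤ a → b ≠ 1 → a + b = n → d ∣ a) : CovZ (SpecialLinearGroup (Fin n) F) := by
  obtain ⟨h, hm, hh, rfl⟩ := exists_irreducible_natDegree (F := F) (show d ≠ 0 by omega)
  obtain ⟨J, hJ⟩ := Valid.exists_typ_eq (n := Fin n)
    (D := Multiset.replicate (n / h.natDegree) (h, 1))
    (fun x hx => Multiset.eq_of_mem_replicate hx ▸ ⟨hm, hh, one_pos⟩)
    (by simp [wt, Nat.div_mul_cancel hdn])
  have hJ' : aeval J h = 0 := (aeval_eq_zero_iff_typ J h).2 fun x hx => by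
    rw [hJ] at hx
    rw [Multiset.eq_of_mem_replicate hx, pow_one]
  have hn2 : 2 ≤ n := hd.trans (Nat.le_of_dvd hn hdn)
  haveI : Nontrivial (Fin n) := Fin.nontrivial_iff_two_le.2 hn2
  let K : Subgroup (SpecialLinearGroup (Fin n) F) :=
    { carrier := {g | g.1 * J = J * g.1}
      mul_mem' := fun ha hb => Commute.mul_left ha hb
      one_mem' := Commute.one_left _
      inv_mem' := fun {g} hg => (Commute.units_inv_left (u := SpecialLinearGroup.toGL g) hg :) }
  have hv : (Pi.single ⟨0, hn⟩ 1 : Fin n → F) ≠ 0 := by simp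
  refine ⟨MulAction.stabilizer _ (Projectivization.mk F _ hv), K, fun e => ?_, fun e => ?_,
    fun z hz => ?_, fun z hz => ?_, fun g => ?_⟩
  · obtain ⟨x, hx⟩ := MulAction.exists_smul_eq (SpecialLinearGroup (Fin n) F)
      (Projectivization.mk F _ hv) (Projectivization.mk F (Pi.single ⟨1, hn2⟩ 1) (by simp))
    obtain ⟨a, ha⟩ := (Projectivization.mk_eq_mk_iff' _ _ _ _ _).1
      (hx.symm.trans (e.ge (Subgroup.mem_top x)))
    simpa using congrFun ha ⟨1, hn2⟩
  · obtain ⟨r, hr⟩ := mem_range_scalar_of_commute_transvectionStruct (M := J) fun t =>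
      e.ge (Subgroup.mem_top (G := SpecialLinearGroup (Fin n) F) ⟨t.toMatrix, by simp⟩)
    rw [← hr, show scalar (Fin n) r = algebraMap F _ r from rfl, aeval_algebraMap_apply,
      map_eq_zero_iff _ (algebraMap F _).injective] at hJ'
    have : h.natDegree = 1 :=
      natDegree_eq_of_degree_eq_some (degree_eq_one_of_irreducible_of_root hh hJ')
    omega
  · exact Equiv.congr_fun (Projectivization.SL_mulAction_ker.ge hz) (Projectivization.mk F _ hv)
  · obtain ⟨r, -, hr⟩ := Matrix.SpecialLinearGroup.mem_center_iff.1 hz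
    change z.1 * J = J * z.1
    exact hr ▸ scalar_commute r (fun _ => Commute.all _ _) J
  by_cases e : ∃ c, g.1.charpoly.IsRoot c
  · obtain ⟨c, hc⟩ := e
    obtain ⟨v, hv'⟩ := (Module.End.hasEigenvalue_iff_isRoot_charpoly (toLin' g.1) c).2
      (by rwa [charpoly_toLin']) |>.exists_hasEigenvector
    obtain ⟨x, hx⟩ := MulAction.exists_smul_eq (SpecialLinearGroup (Fin n) F)
      (Projectivization.mk F _ hv'.2) (Projectivization.mk F _ hv)
    refine .inl ⟨_, ?_, isConj_iff.2 ⟨x, rfl⟩⟩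
    rw [MulAction.mem_stabilizer_iff, ← hx, mul_smul, mul_smul, inv_smul_smul,
      Projectivization.smul_mk g]
    exact congrArg _ ((Projectivization.mk_eq_mk_iff' _ _ _ _ _).2 ⟨c, hv'.apply_eq_smul.symm⟩)
  push Not at e
  have h1 : ∀ r : F[X], r ∣ g.1.charpoly → r.natDegree ≠ 1 := fun r hr h => by
    obtain ⟨c, hc⟩ := exists_root_of_degree_eq_one ((degree_eq_iff_natDegree_eq_of_pos one_pos).2 h)
    exact e c (hc.dvd hr)
  obtain ⟨y, hy⟩ := exists_aeval_root hh g.1.charpoly_monic.ne_zero g.1.aeval_self_charpoly (by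
    rintro r hr ⟨s, hs⟩
    have := hr.natDegree_pos
    have := h1 r ⟨s, hs⟩
    refine H _ _ (by omega) (h1 s ⟨r, by rw [hs, mul_comm]⟩) ?_
    rw [← natDegree_mul hr.ne_zero (right_ne_zero_of_mul (hs ▸ g.1.charpoly_monic.ne_zero)), ← hs,
      charpoly_natDegree_eq_dim, Fintype.card_fin])
  obtain ⟨P, hP⟩ := (similar_iff_typ_eq _ J).2 ((typ_eq_replicate hm hh hy).trans
    (typ_eq_replicate hm hh hJ').symm)
  obtain ⟨Q, hQ, hQ'⟩ := exists_commute_det J (x := (h, 1)) (hJ ▸ Multiset.mem_replicate.2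
    ⟨(Nat.div_pos (Nat.le_of_dvd hn hdn) (by omega)).ne', rfl⟩) (GeneralLinearGroup.det P)⁻¹
  let x : SpecialLinearGroup (Fin n) F := ⟨(Q * P).1, by
    rw [← GeneralLinearGroup.val_det_apply, map_mul, hQ', pow_one, inv_mul_cancel, Units.val_one]⟩
  have h2 : x.1 * aeval g.1 y = J * x.1 := by
    change Q.1 * P.1 * _ = J * (Q.1 * P.1)
    rw [mul_assoc, hP, ← mul_assoc, hQ, mul_assoc]
  have h3 : (x⁻¹).1 * x.1 = 1 := congrArg Subtype.val (inv_mul_cancel x)
  have h4 : x.1 * (x⁻¹).1 = 1 := congrArg Subtype.val (mul_inv_cancel x)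
  refine .inr ⟨_, ?_, isConj_iff.2 ⟨x, rfl⟩⟩
  change x.1 * g.1 * (x⁻¹).1 * J = J * (x.1 * g.1 * (x⁻¹).1)
  calc _ = x.1 * g.1 * (x⁻¹).1 * (J * x.1) * (x⁻¹).1 := by simp only [mul_assoc, h4, mul_one]
    _ = x.1 * (g.1 * aeval g.1 y) * (x⁻¹).1 := by
      rw [← h2]; simp only [← mul_assoc]; rw [mul_assoc _ _ x.1, h3, mul_one]
    _ = _ := by rw [(commute_aeval (Commute.refl g.1) y).eq, ← mul_assoc, h2]; simp only [mul_assoc]

end Cfsg.Agent.Forms
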