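import Cfsg.Agent.Lib.Forms.CovU
import Cfsg.Agent.Lib.Forms.CovSL

/-!
`Sp₆(3^a)` is covered by the conjugates of `Sp₂ × Sp₄` and `Sp₂(q³).3`.
-/

set_option autoImplicit false

universe u

namespace Cfsg.Agent.Forms

open Module Polynomial

theorem cube_aux {F A : Type*} [Field F] [Ring A] [Algebra F A] (h3 : (3 : F) = 0) {θ h h' : A}
    (a : F) (e1 : h * h' = 1) (e2 : h' * h = 1) (e3 : θ * h = h * θ + h) (e4 : θ * h' = h' * θ - h') :
    (θ + a • (h + h')) ^ 3 = θ ^ 3 + a • (h + h') + a ^ 3 • (h ^ 3 + h' ^ 3) := by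
  have f1 : ∀ x, h * (h' * x) = x := fun x => by rw [← mul_assoc, e1, one_mul]
  have f2 : ∀ x, h' * (h * x) = x := fun x => by rw [← mul_assoc, e2, one_mul]
  have f3 : ∀ x, θ * (h * x) = h * (θ * x) + h * x := fun x => by
    rw [← mul_assoc, e3, add_mul, mul_assoc]
  have f4 : ∀ x, θ * (h' * x) = h' * (θ * x) - h' * x := fun x => by
    rw [← mul_assoc, e4, sub_mul, mul_assoc]
  have h6 : (6 : F) = 0 := by linear_combination 2 * h3
  simp only [pow_succ, pow_zero, one_mul, mul_add, add_mul, mul_sub, sub_mul, smul_add, smul_sub,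
    mul_smul_comm, smul_mul_assoc, mul_assoc, e1, e2, e3, e4, f1, f2, f3, f4, mul_one]
  match_scalars <;> ring_nf <;> simp [h3, h6]

variable {F : Type*} [Field F] {V : Type u} [AddCommGroup V] [Module F V] [FiniteDimensional F V]

namespace Form

variable {f : Form (Param.sp F) V}

/-- a cubic field structure -/
def Cub (f : Form (Param.sp F) V) (c : F) (θ : Module.End F V) : Prop :=
  (∀ x y, f.B (θ x) y = f.B x (θ y)) ∧ ∀ x, θ (θ (θ x)) = θ x + c • x

omit [FiniteDimensional F V] in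
theorem Cub.B_self (h2 : (2 : F) ≠ 0) {c : F} {θ : Module.End F V} (h : Cub f c θ) (x : V) :
    f.B x (θ x) = 0 := (mul_eq_zero.1 (show 2 * f.B x (θ x) = 0 by
      linear_combination f.sp_symm (θ x) x - h.1 x x)).resolve_left h2

omit [FiniteDimensional F V] in
theorem Cub.eq_zero {c : F} (hc : ∀ t, t ^ 3 ≠ t + c) {θ : Module.End F V} (h : Cub f c θ) {x : V}
    {t : F} (hx : θ x = t • x) : x = 0 := by
  have := h.2 x
  simp only [hx, map_smul, smul_smul, ← add_smul] at this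
  exact by_contra fun e => hc t (by linear_combination smul_left_injective F e this)

theorem Cub.exists_basis (hf : f.Nondeg) (h2 : (2 : F) ≠ 0) [Nontrivial V] {c : F}
    (hc : ∀ t, t ^ 3 ≠ t + c) {θ : Module.End F V} (h : Cub f c θ) : ∃ e e',
      LinearIndependent F ![e, θ e, θ (θ e), e', θ e', θ (θ e')] ∧ ∀ i j,
        f.B (![e, θ e, θ (θ e), e', θ e', θ (θ e')] i) (![e, θ e, θ (θ e), e', θ e', θ (θ e')] j) =
          !![0, 0, 0, 0, 0, 1; 0, 0, 0, 0, 1, 0; 0, 0, 0, 1, 0, 1;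
            0, 0, -1, 0, 0, 0; 0, -1, 0, 0, 0, 0; -1, 0, -1, 0, 0, 0] i j := by
  obtain ⟨e, he⟩ := exists_ne (0 : V)
  obtain ⟨e', h3, h4⟩ := hf.exists_orth_eq_one (S := Submodule.span F {e, θ e}) (x := θ (θ e))
    fun hx => by
      obtain ⟨a, b, hx⟩ := Submodule.mem_span_pair.1 hx
      have h5 := h.2 e
      rw [← hx, map_add, map_smul, map_smul, ← hx] at h5
      by_cases h6 : a + b ^ 2 - 1 = 0
      · have : (c - a * b) • e = 0 := by linear_combination (norm := module) h6 • θ e - h5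
        exact hc (-b) (by
          linear_combination -b * h6 - (smul_eq_zero.1 this).resolve_right he)
      · exact he (h.eq_zero hc (t := (c - a * b) / (a + b ^ 2 - 1)) (by
          rw [div_eq_inv_mul, mul_smul, eq_inv_smul_iff₀ h6]
          linear_combination (norm := module) h5))
  have a0 : f.B e e' = 0 := h3 _ (Submodule.subset_span (by simp))
  have a1 : f.B e (θ e') = 0 := (h.1 _ _).symm.trans (h3 _ (Submodule.subset_span (by simp)))
  have a2 : f.B e (θ (θ e')) = 1 := by rw [← h.1, ← h.1, h4]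
  have b0 : f.B e' e = 0 := by rw [sp_symm, a0, neg_zero]
  have b1 : f.B e' (θ e) = 0 := by rw [sp_symm, h.1, a1, neg_zero]
  have b2 : f.B e' (θ (θ e)) = -1 := by rw [sp_symm, h4]
  have c2 : ∀ x, f.B x (θ (θ x)) = 0 := fun x => by rw [← h.1, sp_B_self]
  have c1 := h.B_self h2
  refine ⟨e, e', f.linearIndependent_of_dual
    (w := ![θ (θ e') - e', θ e', e', θ (θ e) - e, θ e, e]) (fun i j hij => ?_) fun i => ?_,
    fun i j => ?_⟩
  · fin_cases i <;> fin_cases j <;> simp [h.1, h.2, a0, a1, b0, b1, c1, c2, sp_B_self] at hij ⊢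
  · fin_cases i <;> simp [h.1, a0, a2, b0, b2]
  · fin_cases i <;> fin_cases j <;> simp [h.1, h.2, a0, a1, a2, b0, b1, b2, c1, c2, sp_B_self]

theorem Cub.conj (hf : f.Nondeg) (h2 : (2 : F) ≠ 0) (h6 : finrank F V = 6) {c : F}
    (hc : ∀ t, t ^ 3 ≠ t + c) {θ θ' : Module.End F V} (h : Cub f c θ) (h' : Cub f c θ') :
    ∃ x : f.Isom, ∀ v, x.1 (θ v) = θ' (x.1 v) := by
  haveI : Nontrivial V := finrank_pos_iff.1 (by omega : 0 < finrank F V)
  obtain ⟨e, e', a1, a2⟩ := h.exists_basis hf h2 hc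
  obtain ⟨d, d', b1, b2⟩ := h'.exists_basis hf h2 hc
  obtain ⟨x, hx⟩ := hf.witt_family a1 b1 (fun i j => (a2 i j).trans (b2 i j).symm)
    fun i => by rw [sp_Q, sp_Q]
  refine ⟨x, fun v => LinearMap.congr_fun (show (x.1 : V →ₗ[F] V) ∘ₗ θ = θ' ∘ₗ (x.1 : V →ₗ[F] V) from
    (basisOfLinearIndependentOfCardEqFinrank a1 (by simp [h6])).ext fun i => ?_) v⟩
  have h0 := hx 0; have h1 := hx 1; have h2 := hx 2; have h3 := hx 3; have h4 := hx 4; have h5 := hx 5
  fin_cases i <;> simp_all [h.2, h'.2]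

theorem exists_cub_of_planes (hf : f.Nondeg) (h3 : (3 : F) = 0) {g : f.Isom} {Y : Submodule F V}
    (a1 : ∀ y ∈ Y, ∀ z ∈ Y, f.B (g.1 y) z = 0) (a2 : ∀ y ∈ Y, (g ^ 3).1 y ∈ Y)
    (a3 : ∀ S : Submodule F V, (∀ x ∈ S, g.1 x ∈ S) → Y ≤ S → S = ⊤) {c a : F} {k : ℕ}
    (a4 : ∀ x, a ^ 3 • (((g ^ (3 * k + 1)) ^ 3).1 x + ((g ^ (3 * k + 1))⁻¹ ^ 3).1 x) = c • x) :
    ∃ θ, Cub f c θ ∧ ∀ x, θ (g.1 x) = g.1 (θ x) + g.1 x := by
  have b0 : ∀ x, (g ^ 3).1 x = g.1 (g.1 (g.1 x)) := fun x => by simp [pow_succ]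
  have b4 : ∀ y z w, g.1 (y + g.1 z + g⁻¹.1 w) = w + g.1 y + g⁻¹.1 ((g ^ 3).1 z) := fun y z w => by
    rw [b0, Isom.inv_apply, map_add, map_add, Isom.apply_inv]; abel
  have b1 : ∀ x, ∃ y ∈ Y, ∃ z ∈ Y, ∃ w ∈ Y, x = y + g.1 z + g⁻¹.1 w := fun x => by
    have : x ∈ Y ⊔ Y.map (g.1 : V →ₗ[F] V) ⊔ Y.map (g⁻¹.1 : V →ₗ[F] V) := by
      rw [a3 _ (fun x hx => ?_) (le_sup_of_le_left le_sup_left)]
      · trivial
      obtain ⟨_, h, _, ⟨w, hw, rfl⟩, rfl⟩ := Submodule.mem_sup.1 hx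
      obtain ⟨y, hy, _, ⟨z, hz, rfl⟩, rfl⟩ := Submodule.mem_sup.1 h
      exact (b4 y z w).symm ▸ Submodule.add_mem_sup (Submodule.add_mem_sup hw ⟨y, hy, rfl⟩) ⟨_, a2 z hz, rfl⟩
    obtain ⟨_, h, _, ⟨w, hw, rfl⟩, rfl⟩ := Submodule.mem_sup.1 this
    obtain ⟨y, hy, _, ⟨z, hz, rfl⟩, rfl⟩ := Submodule.mem_sup.1 h
    exact ⟨y, hy, z, hz, w, hw, rfl⟩
  have b2 : ∀ y ∈ Y, g.1 y ∈ f.orth Y := a1
  have b3 : ∀ y ∈ Y, g⁻¹.1 y ∈ f.orth Y := fun y hy z hz => by
    rw [← Isom.B_right, sp_symm, a1 z hz y hy, neg_zero]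
  have hc := hf.isCompl_orth (S := Y) (Submodule.disjoint_def.2 fun y hy h => hf y fun x => by
    obtain ⟨a, ha, z, hz, w, hw, rfl⟩ := b1 x
    rw [B_add_right, B_add_right, h a ha, mem_orth'.1 (b2 z hz) y hy, mem_orth'.1 (b3 w hw) y hy]
    simp)
  let π := Y.projection _ hc
  have p1 : ∀ y ∈ Y, π y = y := fun y hy => Submodule.projection_apply_left hc ⟨y, hy⟩
  have p2 : ∀ y ∈ f.orth Y, π y = 0 := fun y hy => Submodule.projection_apply_right hc ⟨y, hy⟩
  let G := (g.1 : V →ₗ[F] V)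
  let G' := (g⁻¹.1 : V →ₗ[F] V)
  let θ : Module.End F V := G * π * G' - G' * π * G
  have t0 : ∀ y ∈ Y, ∀ z ∈ Y, ∀ w ∈ Y, θ (y + g.1 z + g⁻¹.1 w) = g.1 z - g⁻¹.1 w := by
    intro y hy z hz w hw
    have c1 : π (g⁻¹.1 (g⁻¹.1 w)) = 0 := p2 _ (by
      simpa [pow_succ] using b2 _ (Isom.inv_mem a2 w hw))
    have c2 : π (g.1 (g.1 z)) = 0 := p2 _ (by
      have := b3 _ (a2 z hz); rwa [b0, Isom.inv_apply] at this)
    simp only [θ, G, G', LinearMap.sub_apply, Module.End.mul_apply, LinearEquiv.coe_coe, map_add,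
      Isom.inv_apply, Isom.apply_inv, c1, c2, p1 z hz, p1 w hw, p2 _ (b2 y hy), p2 _ (b3 y hy),
      map_zero]
    abel
  have t1 : ∀ x, θ (g.1 x) = g.1 (θ x) + g.1 x := fun x => by
    obtain ⟨y, hy, z, hz, w, hw, rfl⟩ := b1 x
    rw [t0 y hy z hz w hw, b4, t0 w hw y hy _ (a2 z hz), b0]
    simp only [map_sub, Isom.inv_apply, Isom.apply_inv]
    linear_combination (norm := module) -h3 • g.1 (g.1 z)
  have t2 : θ ^ 3 = θ := LinearMap.ext fun x => by
    obtain ⟨y, hy, z, hz, w, hw, rfl⟩ := b1 x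
    have c1 := t0 0 Y.zero_mem z hz (-w) (neg_mem hw)
    have c2 := t0 0 Y.zero_mem z hz w hw
    simp only [zero_add, map_neg, ← sub_eq_add_neg, sub_neg_eq_add] at c1 c2
    simp only [pow_succ, pow_zero, one_mul, Module.End.mul_apply, t0 y hy z hz w hw, c1, c2]
  have t3 : ∀ x y, f.B (π x) y = f.B x (π y) := fun x y => by
    obtain ⟨a, ha, b, hb, rfl⟩ := Submodule.mem_sup.1 (hc.sup_eq_top ▸ Submodule.mem_top (x := x))
    obtain ⟨c, hc', d, hd, rfl⟩ := Submodule.mem_sup.1 (hc.sup_eq_top ▸ Submodule.mem_top (x := y))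
    simp [p1 a ha, p2 b hb, p1 c hc', p2 d hd, hb c hc', mem_orth'.1 hd a ha]
  have t4 : ∀ (n : ℕ) x, θ ((g ^ n).1 x) = (g ^ n).1 (θ x) + (n : F) • (g ^ n).1 x := fun n => by
    induction n with
    | zero => simp
    | succ n ih =>
      intro x
      simp only [pow_succ', Isom.mul_apply, t1, ih, map_add, map_smul, Nat.cast_succ]
      module
  set h := g ^ (3 * k + 1) with hh
  have t5 : ∀ x, θ (h.1 x) = h.1 (θ x) + h.1 x := fun x => by rw [hh, t4]; simp [h3]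
  have t6 := cube_aux h3 (θ := θ) (h := (h.1 : V →ₗ[F] V)) (h' := (h⁻¹.1 : V →ₗ[F] V)) a
    (LinearMap.ext (Isom.apply_inv h)) (LinearMap.ext (Isom.inv_apply h)) (LinearMap.ext t5)
    (LinearMap.ext fun x => h.1.injective (by
      simpa [Isom.apply_inv] using (eq_sub_iff_add_eq.2 (t5 (h⁻¹.1 x)).symm)))
  refine ⟨θ + a • ((h.1 : V →ₗ[F] V) + (h⁻¹.1 : V →ₗ[F] V)), ⟨fun x y => ?_, fun x => ?_⟩, fun x => ?_⟩
  · simp only [θ, G, G', LinearMap.add_apply, LinearMap.sub_apply, Module.End.mul_apply,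
      LinearMap.smul_apply, LinearEquiv.coe_coe, B_add_left, B_add_right, B_sub_left, B_sub_right,
      B_smul_left, sp_B_smul_right, Isom.B_left, t3, inv_inv]
    ring
  · have := LinearMap.congr_fun t6 x
    rw [t2, ← Isom.coe_pow, ← Isom.coe_pow] at this
    rw [← a4]
    exact this
  · have c1 : Commute h g := (Commute.refl g).pow_left _
    have c2 : h.1 (g.1 x) = g.1 (h.1 x) := congrArg (fun z : f.Isom => z.1 x) c1.eq
    have c3 : h⁻¹.1 (g.1 x) = g.1 (h⁻¹.1 x) := congrArg (fun z : f.Isom => z.1 x) c1.inv_left.eq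
    simp only [LinearMap.add_apply, LinearMap.smul_apply, LinearEquiv.coe_coe, t1, c2, c3, map_add,
      map_smul]
    abel

theorem Ind.struct (hf : f.Nondeg) [Nontrivial V] {g : f.Isom} (hI : Ind g) :
    (∃ v, ∀ S : Submodule F V, (∀ x ∈ S, g.1 x ∈ S) → v ∈ S → S = ⊤) ∨
      ∃ u, (g = u ∨ g = f.negOne * u) ∧ ∃ L, Isom.N u ^ (L + 1) = 0 ∧ Isom.N u ^ L ≠ 0 ∧
        finrank F V = 2 * (L + 1) ∧ ∀ e e', f.B ((Isom.N u ^ L) e) e' = 1 →
          ∀ S : Submodule F V, (∀ x ∈ S, u.1 x ∈ S) → e ∈ S → e' ∈ S → S = ⊤ := by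
  have hI' : Ind (f.negOne * g) := fun S hS => hI S fun x hx => by
    simpa [Isom.mul_apply, negOne_apply] using hS x hx
  have key : ∀ g : f.Isom, Ind g → Function.Injective (Isom.N g) ∨
      (∃ v, ∀ S : Submodule F V, (∀ x ∈ S, g.1 x ∈ S) → v ∈ S → S = ⊤) ∨
      ∃ L, Isom.N g ^ (L + 1) = 0 ∧ Isom.N g ^ L ≠ 0 ∧
        finrank F V = 2 * (L + 1) ∧ ∀ e e', f.B ((Isom.N g ^ L) e) e' = 1 →
          ∀ S : Submodule F V, (∀ x ∈ S, g.1 x ∈ S) → e ∈ S → e' ∈ S → S = ⊤ := fun g hI => by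
    refine (hI (gk (Isom.N g)) (fun x hx => map_mem_gk (φ := (g.1 : V →ₗ[F] V))
      (fun x => by simp [Isom.N_apply]) hx)
      (AA.disjoint (s := true) hf (T := (g.1 : V →ₗ[F] V)) (Isom.map_B g))).imp
        gk_eq_bot_iff.1 fun hN => ?_
    rw [gk_eq_top_iff] at hN
    obtain ⟨L, h1, h2⟩ : ∃ L, Isom.N g ^ (L + 1) = 0 ∧ Isom.N g ^ L ≠ 0 := by
      classical
      obtain ⟨L, hL⟩ := Nat.exists_eq_succ_of_ne_zero (n := Nat.find hN) fun e => by
        simpa [e] using Nat.find_spec hN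
      exact ⟨L, by simpa [hL] using Nat.find_spec hN, Nat.find_min hN (by omega)⟩
    have key : ∀ {M : Type _} [AddCommGroup M] [Module F M] {ω : M →ₗ[F] V}, Top g L ω → ∀ b,
        ω b ≠ 0 → LinearMap.range (cys (Isom.N g) ω (L + 1)) = ⊤ := fun h b hb =>
      (hI _ h.inv h.disjoint).resolve_left fun e => hb (e.le (Top.mem b))
    by_cases h : ∀ e, f.B ((Isom.N g ^ L) e) e = 0
    · have h9 : ∀ e e', f.B ((Isom.N g ^ L) e) e' = 1 → Top g L (pairMap F e e') ∧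
          LinearMap.range (cys (Isom.N g) (pairMap F e e') (L + 1)) = ⊤ := fun e e' h3 => by
        have h5 : f.B ((Isom.N g ^ L) e') e = -1 := by
          have := h (e + e')
          simp only [map_add, LinearMap.add_apply, h e, h e', h3] at this
          linear_combination this
        have h7 : Top g L (pairMap F e e') := ⟨h1, fun a ha => Prod.ext
          (by simpa [pairMap_apply, h, h3] using ha (0, 1))
          (by simpa [pairMap_apply, h, h5] using ha (1, 0))⟩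
        exact ⟨h7, key h7 (1, 0) fun e => by simp_all [pairMap_apply]⟩
      obtain ⟨e, he⟩ := DFunLike.ne_iff.1 h2
      obtain ⟨e', he'⟩ := hf.exists_eq_one he
      refine .inr ⟨L, h1, h2, ?_, fun e e' h3 S hS a1 a2 => eq_top_iff.2 ((h9 e e' h3).2 ▸
        range_cys_le hS fun b => add_mem (S.smul_mem _ a1) (S.smul_mem _ a2))⟩
      rw [← finrank_top, ← (h9 e e' he').2, LinearMap.finrank_range_of_inj (h9 e e' he').1.injective]
      simp [Module.finrank_pi_fintype, mul_comm]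
    · push Not at h
      obtain ⟨e, he⟩ := h
      have h3 : Top g L (LinearMap.toSpanSingleton F V e) := ⟨h1, fun a ha => by simpa [he] using ha 1⟩
      exact .inl ⟨e, fun S hS a1 => eq_top_iff.2 (key h3 1 (fun e' => he (by simp_all)) ▸
        range_cys_le hS fun b => S.smul_mem _ a1)⟩
  rcases key g hI with h3 | h3 | h3
  · rcases key _ hI' with h4 | ⟨v, h4⟩ | h4
    · obtain ⟨v, h5, h6⟩ := hf.exists_cyc_sp (g := g) fun v hv => h4 (h3 (by
        simp [Isom.N_apply, negOne_apply, hv]; abel))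
      have h7 := (hI _ (by rintro _ ⟨y, rfl⟩; exact ⟨X * y, by simp [evalAt_apply]⟩) h6).resolve_left
        fun e => h5 (e.le ⟨1, by simp [evalAt_apply]⟩)
      exact .inl ⟨v, fun S hS hv => eq_top_iff.2 (h7 ▸ by
        rintro _ ⟨y, rfl⟩; exact aeval_mem hS y v hv)⟩
    · exact .inl ⟨v, fun S hS => h4 S fun x hx => by simpa [negOne_apply] using hS x hx⟩
    · exact .inr ⟨_, .inr (by rw [← mul_assoc, negOne_mul_self, one_mul]), h4⟩
  · exact .inl h3
  · exact .inr ⟨g, .inl rfl, h3⟩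

variable [Fintype F]

omit [FiniteDimensional F V] in
theorem _root_.Cfsg.Agent.Forms.exists_cube (h3 : (3 : F) = 0) (c : F) : ∃ a : F, a ^ 3 = c :=
  haveI := (CharP.charP_iff_prime_eq_zero (R := F) Nat.prime_three).2 h3
  surjective_frobenius F 3 c

theorem exists_cub_two (hf : f.Nondeg) (h3 : (3 : F) = 0) {u : f.Isom} (h1 : Isom.N u ^ 3 = 0)
    (h2 : Isom.N u ^ 2 ≠ 0) (h4 : ∀ e e', f.B ((Isom.N u ^ 2) e) e' = 1 →
      ∀ S : Submodule F V, (∀ x ∈ S, u.1 x ∈ S) → e ∈ S → e' ∈ S → S = ⊤) (c : F) :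
    ∃ θ, Cub f c θ ∧ ∀ x, θ (u.1 x) = u.1 (θ x) + u.1 x := by
  have a1 : ∀ x, u.1 (u.1 (u.1 x)) = x := fun x => by
    have := LinearMap.congr_fun h1 x
    simp only [pow_succ, pow_zero, one_mul, Module.End.mul_apply, Isom.N_apply, map_sub,
      LinearMap.zero_apply] at this
    linear_combination (norm := module) this + h3 • (u.1 (u.1 x) - u.1 x)
  have a2 : ∀ x, (Isom.N u ^ 2) x = u.1 (u.1 x) + u.1 x + x := fun x => by
    simp only [sq, Module.End.mul_apply, Isom.N_apply, map_sub]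
    linear_combination (norm := module) -h3 • u.1 x
  have a3 : ∀ x y, f.B x (u.1 y) = f.B (u.1 (u.1 x)) y := fun x y => by rw [← Isom.map_B u x, ← Isom.map_B u (u.1 x), a1]
  have a4 : ∀ x, f.B (u.1 (u.1 x)) x = -f.B (u.1 x) x := fun x => by rw [← a3, sp_symm]
  obtain ⟨v, hv⟩ := DFunLike.ne_iff.1 h2
  obtain ⟨w, hw⟩ := hf.exists_eq_one hv
  obtain ⟨e, b1, b2⟩ : ∃ e, f.B (u.1 e) e = 0 ∧ (Isom.N u ^ 2) e ≠ 0 := by
    refine ⟨v + f.B (u.1 v) v • (u.1 (u.1 w) - w), ?_, fun h => hv (by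
      simp only [a2, a1, map_add, map_sub, map_smul, LinearMap.zero_apply] at h ⊢
      linear_combination (norm := module) h)⟩
    simp only [a2, B_add_left] at hw
    simp only [map_add, map_sub, map_smul, LinearMap.add_apply, LinearMap.sub_apply, smul_eq_mul,
      LinearMap.smul_apply, sp_B_smul_right, a1, a3, a4, sp_B_self, f.sp_symm v w, f.sp_symm v (u.1 w)]
    linear_combination -f.B (u.1 v) v * hw + f.B (u.1 v) v * (f.B (u.1 (u.1 v)) w +
      f.B (u.1 v) v * f.B (u.1 w) w) * h3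
  obtain ⟨d, hd⟩ := hf.exists_B_eq (u := ![e, u.1 e, u.1 (u.1 e)]) (Fintype.linearIndependent_iff.2
    fun a ha => by
      simp only [Fin.sum_univ_three, Matrix.cons_val] at ha
      have c1 := congrArg u.1 ha
      have c2 := congrArg u.1 c1
      simp only [map_add, map_smul, a1, map_zero] at c1 c2
      rw [a2] at b2
      have c3 := (smul_eq_zero.1 (show (a 0 + a 1 + a 2) • (u.1 (u.1 e) + u.1 e + e) = 0 by
        linear_combination (norm := module) ha + c1 + c2)).resolve_right b2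
      have c4 := (smul_eq_zero.1 (show (a 1 - a 2) • (u.1 (u.1 e) + u.1 e + e) = 0 by
        linear_combination (norm := module) c1 - ha - c3 • (u.1 e - e) +
          h3 • (a 1 • u.1 e - a 2 • e))).resolve_right b2
      have c5 := (smul_eq_zero.1 (show a 2 • (u.1 (u.1 e) + u.1 e + e) = 0 by
        linear_combination (norm := module) ha - c3 • e - c4 • (u.1 e - e) +
          h3 • a 2 • e)).resolve_right b2
      intro i
      fin_cases i
      exacts [by simpa using (by linear_combination c3 - c4 - 2 * c5 : a 0 = 0),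
        by simpa using (by linear_combination c4 + c5 : a 1 = 0), c5]) ![1, 0, 0]
  have d0 : f.B e d = 1 := hd 0
  have d1 : f.B (u.1 e) d = 0 := hd 1
  have d2 : f.B (u.1 (u.1 e)) d = 0 := hd 2
  obtain ⟨e', b3, b4, b5, b6⟩ : ∃ e', f.B e e' = 1 ∧ f.B (u.1 e) e' = 0 ∧
      f.B (u.1 (u.1 e)) e' = 0 ∧ f.B (u.1 e') e' = 0 := by
    refine ⟨d + f.B (u.1 d) d • u.1 e, ?_, ?_, ?_, ?_⟩ <;>
      simp [a1, a3, a4, sp_B_self, b1, d0, d1, d2, f.sp_symm e d]
  obtain ⟨a, ha⟩ := exists_cube h3 (-c)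
  have a5 : u ^ 3 = 1 := Isom.ext fun x => by simpa [pow_succ] using a1 x
  refine exists_cub_of_planes hf h3 (Y := Submodule.span F {e, e'}) (fun y hy z hz => ?_)
    (fun y hy => by rwa [a5]) (fun S hS h => h4 e e' (by simp [a2, b3, b4, b5]) S hS
      (h (Submodule.subset_span (by simp))) (h (Submodule.subset_span (by simp)))) (a := a) (k := 0)
    fun x => ?_
  · obtain ⟨s, t, rfl⟩ := Submodule.mem_span_pair.1 hy
    obtain ⟨s', t', rfl⟩ := Submodule.mem_span_pair.1 hz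
    simp [b1, b4, b6, f.sp_symm e (u.1 e'), a3, b5]
  · rw [mul_zero, zero_add, pow_one, inv_pow, a5, inv_one, ha, Isom.one_apply]
    linear_combination (norm := module) -(c * h3) • x

end Form

end Cfsg.Agent.Forms
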