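import Cfsg.Agent.Lib.Forms.CovSp6

/-!
`Sp₆(3^a)` is covered by the conjugates of `Sp₂ × Sp₄` and `Sp₂(q³).3`, part two.
-/

set_option autoImplicit false

universe u

namespace Cfsg.Agent.Forms

open Module Polynomial

variable {F : Type*} [Field F] {V : Type u} [AddCommGroup V] [Module F V] [FiniteDimensional F V]
  [Fintype F]

namespace Form

variable {f : Form (Param.sp F) V}

theorem exists_cub_root (hf : f.Nondeg) (h3 : (3 : F) = 0) {g : f.Isom} {v : V}
    (hv : ∀ S : Submodule F V, (∀ x ∈ S, g.1 x ∈ S) → v ∈ S → S = ⊤) {t : F} {S : Module.End F V}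
    (h0 : ∀ x, S x = t • x - g.1 x - g⁻¹.1 x) (h1 : ∀ x, S (S (S x)) = 0) (h2 : S (S v) ≠ 0) (c : F) :
    ∃ θ, Cub f c θ ∧ ∀ x, θ (g.1 x) = g.1 (θ x) + g.1 x := by
  have a1 : ∀ x, S (g.1 x) = g.1 (S x) := fun x => by
    simp only [h0, map_sub, map_smul, Isom.apply_inv, Isom.inv_apply]
  have a2 : ∀ x y, f.B (S x) y = f.B x (S y) := fun x y => by
    simp only [h0, B_sub_left, B_sub_right, B_smul_left, sp_B_smul_right, Isom.B_left, inv_inv]
    ring
  have a3 : ∀ x, f.B x (S x) = 0 := fun x => by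
    linear_combination a2 x x - f.sp_symm (S x) x + f.B x (S x) * h3
  have a4 : f.B (g.1 v) (S (S v)) ≠ 0 := fun e => h2 (hf _ fun y => by
    have := hv (f.orth (Submodule.span F {S (S v), g⁻¹.1 (S (S v))})) (fun x hx => ?_)
      (mem_orth_pair.2 ⟨by rw [← a2, sp_B_self], by rw [← Isom.B_left, e]⟩)
    · exact f.B_eq_zero_symm (mem_orth_pair.1 (this ▸ Submodule.mem_top (x := y))).1
    obtain ⟨b1, b2⟩ := mem_orth_pair.1 hx
    have b3 := (h0 _).symm.trans (h1 v)
    refine mem_orth_pair.2 ⟨by rw [Isom.B_left, b2], ?_⟩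
    rw [show g⁻¹.1 (S (S v)) = t • S (S v) - g.1 (S (S v)) by
      linear_combination (norm := module) -b3, B_sub_right, sp_B_smul_right, Isom.map_B,
      Isom.B_left, b1, b2]
    ring)
  obtain ⟨e, b1, b2, b3⟩ : ∃ e, f.B (g.1 e) e = 0 ∧ f.B (g.1 e) (S e) = 0 ∧
      ∀ T : Submodule F V, (∀ x ∈ T, g.1 x ∈ T) → e ∈ T → T = ⊤ := by
    obtain ⟨a, ha⟩ : ∃ a, a * f.B (g.1 v) (S (S v)) = f.B (g.1 v) (S v) :=
      ⟨_, div_mul_cancel₀ _ a4⟩
    obtain ⟨b, hb⟩ : ∃ b, b * f.B (g.1 v) (S (S v)) = f.B (g.1 v) v :=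
      ⟨_, div_mul_cancel₀ _ a4⟩
    refine ⟨v + a • S v + b • S (S v), ?_, ?_, fun T hT he => hv T hT ?_⟩
    · simp only [map_add, map_smul, LinearMap.add_apply, LinearMap.smul_apply, sp_B_smul_right,
        ← a1, a2, h1, map_zero, smul_eq_mul]
      linear_combination -hb + a * ha + (a * f.B (g.1 v) (S v) + b * f.B (g.1 v) (S (S v))) * h3
    · simp only [map_add, map_smul, LinearMap.add_apply, LinearMap.smul_apply, sp_B_smul_right,
        ← a1, a2, h1, smul_eq_mul, map_zero]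
      linear_combination -ha + (a * f.B (g.1 v) (S (S v))) * h3
    · have c1 : ∀ x ∈ T, S x ∈ T := fun x hx => (h0 x).symm ▸
        sub_mem (sub_mem (T.smul_mem _ hx) (hT x hx)) (Isom.inv_mem hT x hx)
      have c2 := c1 _ he
      have c3 := c1 _ c2
      simp only [map_add, map_smul, h1, smul_zero, add_zero] at c2 c3
      convert add_mem (sub_mem he (T.smul_mem a c2)) (T.smul_mem (a ^ 2 - b) c3) using 1
      module
  have b0 : ∀ x, (g ^ 3).1 x = g.1 (g.1 (g.1 x)) := fun x => by simp [pow_succ]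
  have b4 : ∀ x, (g ^ 3).1 ((g ^ 3).1 x) = t ^ 3 • (g ^ 3).1 x - x := fun x => by
    have := h1 (g.1 (g.1 (g.1 x)))
    simp only [h0, map_sub, map_smul, Isom.inv_apply] at this
    simp only [b0]
    linear_combination (norm := module) -this + h3 • (-t ^ 2 • g.1 (g.1 (g.1 (g.1 x))) -
      t ^ 2 • g.1 (g.1 x) + t • g.1 (g.1 (g.1 (g.1 (g.1 x)))) + (2 * t) • g.1 (g.1 (g.1 x)) +
      t • g.1 x - g.1 (g.1 (g.1 (g.1 x))) - g.1 (g.1 x))
  have b5 : f.B (g.1 (g.1 e)) e = 0 := by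
    have := a2 (g.1 e) e
    rw [h0, Isom.inv_apply, B_sub_left, B_sub_left, B_smul_left, b1, b2, sp_B_self] at this
    linear_combination -this
  have b6 : f.B (g.1 e) ((g ^ 3).1 e) = 0 := by rw [b0, Isom.map_B, sp_symm, b5, neg_zero]
  have b7 : f.B (g.1 ((g ^ 3).1 e)) ((g ^ 3).1 e) = 0 := by
    rw [b0, Isom.map_B, Isom.map_B, Isom.map_B, b1]
  have b8 : f.B (g.1 ((g ^ 3).1 e)) e = 0 := by
    rw [← Isom.map_B (g ^ 3), show ∀ x, (g ^ 3).1 (g.1 x) = g.1 ((g ^ 3).1 x) from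
      fun x => by rw [b0, b0], b4, map_sub, map_smul, B_sub_left, B_smul_left, b6, b7]
    ring
  have key : ∀ (a : F) (k : ℕ), (∀ x, a ^ 3 • (((g ^ (3 * k + 1)) ^ 3).1 x +
      ((g ^ (3 * k + 1))⁻¹ ^ 3).1 x) = c • x) → _ := fun a k =>
    exists_cub_of_planes hf h3 (Y := Submodule.span F {e, (g ^ 3).1 e}) (fun y hy z hz => by
      obtain ⟨s, t, rfl⟩ := Submodule.mem_span_pair.1 hy
      obtain ⟨s', t', rfl⟩ := Submodule.mem_span_pair.1 hz
      simp only [map_add, map_smul, LinearMap.add_apply, LinearMap.smul_apply, sp_B_smul_right,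
        b1, b6, b7, b8, smul_eq_mul, mul_zero, add_zero])
      (fun y hy => by
        obtain ⟨s, r, rfl⟩ := Submodule.mem_span_pair.1 hy
        exact Submodule.mem_span_pair.2 ⟨-r, s + r * t ^ 3, by
          rw [map_add, map_smul, map_smul, b4]; module⟩)
      (fun S hS h => b3 S hS (h (Submodule.subset_span (by simp))))
  by_cases ht : t = 0
  · obtain ⟨a, ha⟩ := exists_cube h3 (-c)
    have a5 : (g ^ (3 * 1 + 1)) ^ 3 = 1 := by
      rw [← pow_mul, mul_comm _ 3, pow_mul]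
      refine Isom.ext fun x => ?_
      simp only [ht, ne_eq, OfNat.ofNat_ne_zero, not_false_eq_true, zero_pow, zero_smul,
        zero_sub] at b4
      generalize g ^ 3 = γ at b4
      simp [pow_succ, b4]
    refine key a 1 fun x => ?_
    rw [inv_pow, a5, inv_one, ha, Isom.one_apply]
    linear_combination (norm := module) -(c * h3) • x
  · obtain ⟨a, ha⟩ := exists_cube h3 c
    refine key (a / t) 0 fun x => ?_
    have := b4 ((g ^ 3)⁻¹.1 x)
    rw [Isom.apply_inv] at this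
    rw [mul_zero, zero_add, pow_one, inv_pow, this, sub_add_cancel, smul_smul, div_pow,
      div_mul_cancel₀ _ (pow_ne_zero 3 ht), ha]

theorem exists_cub_cyc (hf : f.Nondeg) (h3 : (3 : F) = 0) (h6 : finrank F V = 6) {g : f.Isom}
    (hI : Ind g) {v : V} (hv : ∀ S : Submodule F V, (∀ x ∈ S, g.1 x ∈ S) → v ∈ S → S = ⊤) {c : F}
    (hc : ∀ t, t ^ 3 ≠ t + c) : ∃ θ, Cub f c θ ∧ ∃ a : F, ∀ x, θ (g.1 x) = g.1 (θ x) + a • g.1 x := by
  have a0 : Commute (g.1 : V →ₗ[F] V) (TT g) := by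
    simpa [Isom.N] using (commute_N_TT g).add_left (Commute.one_left _)
  have a1 : ∀ (p : F[X]) x, g.1 (aeval (TT g) p x) = aeval (TT g) p (g.1 x) := aeval_comm_apply a0
  have a2 : ∀ p : F[X], aeval (TT g) p v = 0 ↔ minpoly F (TT g) ∣ p := fun p =>
    ⟨fun h => minpoly.dvd F _ (LinearMap.ker_eq_top.1 (hv _ (fun x hx => by
      rw [LinearMap.mem_ker, ← a1, show aeval (TT g) p x = 0 from hx, map_zero]) h)),
      fun ⟨y, hy⟩ => by rw [hy, map_mul, minpoly.aeval, zero_mul, LinearMap.zero_apply]⟩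
  have a3 : (minpoly F (TT g)).natDegree = 3 := by
    have b1 := hf.finrank_add_orth (RR g v)
    have b2 := Submodule.finrank_mono (RR_le_orth_self g v)
    have b3 := Submodule.finrank_add_le_finrank_add_finrank (RR g v) ((RR g v).map (Isom.N g))
    rw [hv _ (inv_sup_map (TT_mem_RR g v)) (Submodule.mem_sup_left (mem_RR_self g v)),
      finrank_top] at b3
    have b4 := Submodule.finrank_map_le (Isom.N g) (RR g v)
    have b5 : finrank F (RR g v) = _ := finrank_range_evalAt a2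
    omega
  have a4 : minpoly F (TT g) ≠ 0 := minpoly.ne_zero (Algebra.IsIntegral.isIntegral _)
  by_cases h : ∃ τ, (minpoly F (TT g)).IsRoot τ
  · obtain ⟨τ, h⟩ := h
    obtain ⟨s, b1, b2⟩ := exists_eq_pow_rootMultiplicity_mul_and_not_dvd _ a4 τ
    generalize rootMultiplicity τ _ = j at b1
    have b3 : ∀ y, aeval (TT g) s y ∈ LinearMap.ker (aeval (TT g) ((X - C τ) ^ j)) := fun y => by
      rw [LinearMap.mem_ker, ← Module.End.mul_apply, ← map_mul, ← b1, minpoly.aeval]; rfl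
    have b4 := (hI (LinearMap.ker (aeval (TT g) ((X - C τ) ^ j))) (fun x hx => by
      rw [LinearMap.mem_ker, ← a1, show aeval (TT g) _ x = 0 from hx, map_zero])
      (Submodule.disjoint_def.2 fun x hx hx' => by
        obtain ⟨a, b, hab⟩ := (((irreducible_X_sub_C τ).coprime_iff_not_dvd).2 b2).pow_left (m := j)
        have b5 : aeval (TT g) s x = 0 := hf _ fun y => by rw [B_aeval_TT, hx' _ (b3 y)]
        simpa [show aeval (TT g) _ x = 0 from hx, b5, -map_pow] using
          (congrArg (aeval (TT g) · x) hab).symm)).resolve_left fun e =>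
      b2 ((dvd_iff_isRoot.2 h).trans ((a2 s).1 (e.le (b3 v))))
    have b5 := natDegree_le_of_dvd (Dvd.intro _ b1.symm) a4
    rw [a3, natDegree_pow, natDegree_X_sub_C, mul_one] at b5
    obtain ⟨k, hk⟩ := Nat.exists_eq_add_of_le' b5
    have b6 : aeval (TT g) ((X - C τ) ^ 3) = 0 := by
      rw [hk, pow_add, map_mul, LinearMap.ker_eq_top.1 b4, mul_zero]
    obtain ⟨θ, c1, c2⟩ := exists_cub_root hf h3 hv (t := 2 - τ) (S := aeval (TT g) (X - C τ))
      (fun x => by simp [TT_apply, Isom.N_apply]; module)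
      (fun x => by simpa only [pow_succ, pow_zero, one_mul, map_mul, Module.End.mul_apply,
        LinearMap.zero_apply] using LinearMap.congr_fun b6 x)
      (fun e => by
        have := natDegree_le_of_dvd ((a2 ((X - C τ) ^ 2)).1 (by rw [sq, map_mul]; exact e))
          (pow_ne_zero _ (X_sub_C_ne_zero τ))
        rw [a3, natDegree_pow, natDegree_X_sub_C] at this
        omega) c
    exact ⟨θ, c1, 1, by simpa using c2⟩
  · push Not at h
    have b0 : (X ^ 3 - X - C c : F[X]).natDegree = 3 := by compute_degree!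
    have b1 : Irreducible (X ^ 3 - X - C c : F[X]) :=
      irreducible_of_degree_le_three_of_not_isRoot (by simp [b0]) fun t ht =>
        hc t (by simpa [sub_sub, sub_eq_zero] using ht)
    have b2 := irreducible_of_degree_le_three_of_not_isRoot (by simp [a3]) h
    obtain ⟨y, hy⟩ := exists_aeval_root b1 a4 (minpoly.aeval F _) fun r hr h => by
      rw [b0, ← a3, natDegree_eq_of_degree_eq (degree_eq_degree_of_associated (hr.associated_of_dvd b2 h))]
    refine ⟨aeval (TT g) y, ⟨B_aeval_TT g y, fun x => ?_⟩, 0, fun x => by simp [a1]⟩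
    simpa [pow_succ, sub_sub, sub_eq_zero] using LinearMap.congr_fun hy x

theorem Ind.exists_cub (hf : f.Nondeg) (h3 : (3 : F) = 0) (h6 : finrank F V = 6) {g : f.Isom}
    (hI : Ind g) {c : F} (hc : ∀ t, t ^ 3 ≠ t + c) :
    ∃ θ, Cub f c θ ∧ ∃ a : F, ∀ x, θ (g.1 x) = g.1 (θ x) + a • g.1 x := by
  haveI : Nontrivial V := finrank_pos_iff.1 (by omega : 0 < finrank F V)
  obtain ⟨v, hv⟩ | ⟨u, hu, L, h1, h2, h4, h5⟩ := hI.struct hf
  · exact exists_cub_cyc hf h3 h6 hI hv hc
  obtain rfl : L = 2 := by omega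
  obtain ⟨θ, a1, a2⟩ := exists_cub_two hf h3 h1 h2 h5 c
  refine ⟨θ, a1, 1, fun x => ?_⟩
  rcases hu with rfl | rfl
  · simp [a2]
  · simp [negOne_apply, a2]; abel

omit [Fintype F] in
theorem exists_hypPair_span {S : Submodule F V} (h1 : Disjoint S (f.orth S)) (h2 : finrank F S = 2) :
    ∃ u e, f.HypPair u e ∧ S = Submodule.span F {u, e} := by
  haveI : Nontrivial S := finrank_pos_iff.1 (by omega : 0 < finrank F S)
  obtain ⟨u, hu⟩ := exists_ne (0 : S)
  obtain ⟨e, he⟩ := ((f.restrict_nondeg_iff S).2 h1).exists_eq_one hu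
  have h : f.HypPair u e := ⟨f.sp_Q _, f.sp_Q _, he⟩
  exact ⟨u, e, h, (Submodule.eq_of_le_of_finrank_eq (Submodule.span_le.2
    (Set.insert_subset u.2 (Set.singleton_subset_iff.2 e.2))) (h.finrank_span.trans h2.symm)).symm⟩

theorem Nondeg.covZ_sp6 (hf : f.Nondeg) (h3 : (3 : F) = 0) (h6 : finrank F V = 6) : CovZ f.Isom := by
  haveI : Nontrivial V := finrank_pos_iff.1 (by omega : 0 < finrank F V)
  have h2 : (2 : F) ≠ 0 := fun e => one_ne_zero (by linear_combination h3 - e : (1 : F) = 0)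
  obtain ⟨c, hc⟩ : ∃ c : F, ∀ t, t ^ 3 ≠ t + c := by
    by_contra! h
    have := Finite.injective_iff_surjective.2 (show Function.Surjective fun t : F => t ^ 3 - t from
      fun c => (h c).imp fun t ht => by simp [ht])
    exact zero_ne_one (this (by simp : (0 : F) ^ 3 - 0 = 1 ^ 3 - 1))
  obtain ⟨u, hu⟩ := exists_ne (0 : V)
  obtain ⟨e, he⟩ := hf.exists_hypPair (f.sp_Q u) hu
  let H := stabF f.Isom (· ∈ Submodule.span F {u, e})
  have a1 : H ≠ ⊤ := fun h => by
    obtain ⟨w, hw, h0⟩ := Submodule.exists_mem_ne_zero_of_ne_bot (p := f.orth (.span F {u, e}))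
      fun e => by have := he.finrank_orth hf; rw [e, finrank_bot] at this; omega
    have := (h.ge (Subgroup.mem_top (f.qrefl (e + w) 1 (f.sp_isLam _ _) one_ne_zero)) u).mpr
      (Submodule.subset_span (by simp))
    change (f.qrefl (e + w) 1 _ _).1 u ∈ _ at this
    rw [qrefl_apply, B_add_right, he.Bue, f.B_eq_zero_symm (mem_orth_pair.1 hw).1] at this
    exact h0 (Submodule.disjoint_def.1 he.disjoint w (by
      convert sub_mem (sub_mem (Submodule.subset_span (by simp : u ∈ ({u, e} : Set V)))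
        (Submodule.subset_span (by simp : e ∈ ({u, e} : Set V)))) this using 1
      simp) hw)
  have a2 : Subgroup.center f.Isom ≤ H := fun z hz => by
    obtain ⟨c, hc⟩ := (hf.sp_mem_center_iff z).1 hz
    exact Isom.mem_iff fun x hx => hc x ▸ Submodule.smul_mem _ c hx
  have a3 : ∀ g : f.Isom, ¬ Ind g → ∃ y ∈ H, IsConj g y := fun g hg => by
    obtain ⟨S, b1, b2, b3⟩ : ∃ S : Submodule F V, (∀ x ∈ S, g.1 x ∈ S) ∧ Disjoint S (f.orth S) ∧
        finrank F S = 2 := by
      simp only [Ind, not_forall, not_or] at hg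
      obtain ⟨S, b1, b2, b3, b4⟩ := hg
      obtain ⟨k, hk⟩ := ((f.restrict_nondeg_iff S).2 b2).sp_even
      have b5 := Submodule.finrank_lt b4
      have b6 := mt Submodule.finrank_eq_zero.1 b3
      have b7 := hf.finrank_add_orth S
      by_cases b8 : finrank F S = 2
      · exact ⟨S, b1, b2, b8⟩
      · exact ⟨_, Isom.orth_invariant g b1, hf.disjoint_orth_orth b2, by omega⟩
    obtain ⟨u', e', b4, rfl⟩ := exists_hypPair_span b2 b3
    obtain ⟨x, b5, b6⟩ := hf.witt_hypPair b4 he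
    refine exists_stabF (Q' := (· ∈ Submodule.span F {u', e'})) (Isom.mem_iff b1) x fun v => ?_
    rw [← b5, ← b6, ← Set.image_pair, Submodule.span_image_linearEquiv]
    exact propext ((Submodule.mem_map_equiv (e := x.1) _).trans (by
      rw [show x • v = x.1 v from rfl, LinearEquiv.symm_apply_apply]))
  by_cases h : ∃ θ, Cub f c θ
  swap
  · exact ⟨H, H, a1, a1, a2, a2, fun g => .inl (a3 g fun hI =>
      h ((hI.exists_cub hf h3 h6 hc).imp fun _ h => h.1))⟩
  obtain ⟨θ, hθ⟩ := h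
  let K : Subgroup f.Isom :=
    { carrier := {g | ∃ a : F, ∀ x, θ (g.1 x) = g.1 (θ x) + a • g.1 x}
      mul_mem' := fun {g k} ⟨a, ha⟩ ⟨b, hb⟩ => ⟨a + b, fun x => by
        simp only [Isom.mul_apply, ha, hb, map_add, map_smul]; module⟩
      one_mem' := ⟨0, by simp⟩
      inv_mem' := fun {g} ⟨a, ha⟩ => ⟨-a, fun x => g.1.injective (by
        have := ha (g⁻¹.1 x)
        simp only [map_add, map_smul, Isom.apply_inv] at this ⊢
        rw [this]; module)⟩ }
  refine ⟨H, K, a1, fun h => ?_, a2, fun z hz => ?_, fun g => (em' (Ind g)).imp (a3 g) fun hI => ?_⟩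
  · obtain ⟨a, ha⟩ := h.ge (Subgroup.mem_top (f.qrefl u 1 (f.sp_isLam _ _) one_ne_zero))
    have b1 := ha u
    have b2 := ha e
    simp only [qrefl_apply, sp_B_self, f.B_eq_zero_symm (hθ.B_self h2 u), he.Beu, mul_zero, zero_smul,
      sub_zero, left_eq_add, smul_eq_zero, hu, or_false, map_sub, map_smul] at b1 b2
    exact hu (hθ.eq_zero hc (t := -f.B (θ e) u) (by
      simp only [b1, Param.sp_ε] at b2; linear_combination (norm := module) b2))
  · obtain ⟨c, hc⟩ := (hf.sp_mem_center_iff z).1 hz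
    exact ⟨0, fun x => by simp [hc]⟩
  · obtain ⟨θ', b1, a, b2⟩ := hI.exists_cub hf h3 h6 hc
    obtain ⟨x, hx⟩ := b1.conj hf h2 h6 hc hθ
    refine ⟨x * g * x⁻¹, ⟨a, fun v => ?_⟩, isConj_iff.2 ⟨x, rfl⟩⟩
    obtain ⟨v, rfl⟩ := x.1.surjective v
    simp only [Isom.mul_apply, Isom.inv_apply, ← hx, b2, map_add, map_smul]

end Form

end Cfsg.Agent.Forms
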