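import Cfsg.Agent.Lib.Forms.Cov1
import Cfsg.Agent.Lib.Forms.SU3
import Cfsg.Agent.Lib.MI.U1

/-!
Coverings of `SU₄(q)` and `SU₃(3^a)` by the conjugates of two subgroups.
-/

set_option autoImplicit false

namespace Cfsg.Agent.Forms

open Module Polynomial GLn

variable {F : Type*} [Field F] {V W : Type*} [AddCommGroup V] [Module F V]
  [AddCommGroup W] [Module F W]

theorem finrank_range_evalAt {φ : V →ₗ[F] V} {v : V} {h : F[X]}
    (H : ∀ x, aeval φ x v = 0 ↔ h ∣ x) : finrank F (LinearMap.range (evalAt φ v)) = h.natDegree := by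
  rw [← (evalAt φ v).quotKerEquivRange.finrank_eq, ← finrank_quotient_span_eq_natDegree,
    ← (Submodule.Quotient.restrictScalarsEquiv F (Ideal.span {h})).finrank_eq]
  exact (Submodule.quotEquivOfEq _ _ (Submodule.ext fun x =>
    (H x).trans Ideal.mem_span_singleton.symm)).finrank_eq

theorem exists_equiv_of_cyc {φ : V →ₗ[F] V} {ψ : W →ₗ[F] W} {v : V} {w : W}
    (h1 : LinearMap.range (evalAt φ v) = ⊤) (h2 : LinearMap.range (evalAt ψ w) = ⊤)
    (h : ∀ x : F[X], aeval φ x v = 0 ↔ aeval ψ x w = 0) : ∃ e : V ≃ₗ[F] W, ∀ y, e (φ y) = ψ (e y) := by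
  let a := (evalAt φ v).quotKerEquivOfSurjective (LinearMap.range_eq_top.1 h1)
  let b := Submodule.quotEquivOfEq (LinearMap.ker (evalAt φ v)) (LinearMap.ker (evalAt ψ w))
    (Submodule.ext h) ≪≫ₗ (evalAt ψ w).quotKerEquivOfSurjective (LinearMap.range_eq_top.1 h2)
  let e := a.symm ≪≫ₗ b
  have he : ∀ x, e (aeval φ x v) = aeval ψ x w := fun x =>
    congrArg b (a.symm_apply_apply (Submodule.Quotient.mk x))
  refine ⟨e, fun y => ?_⟩
  obtain ⟨x, rfl⟩ := LinearMap.range_eq_top.1 h1 y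
  have := he (X * x)
  simp only [map_mul, aeval_X, Module.End.mul_apply] at this
  rw [evalAt_apply, he, this]

theorem aeval_eq_zero_iff_pow_dvd {φ : V →ₗ[F] V} {v : V} {r : F[X]} (hr : Irreducible r) {i : ℕ}
    (h1 : aeval φ (r ^ (i + 1)) v = 0) (h2 : aeval φ (r ^ i) v ≠ 0) (x : F[X]) :
    aeval φ x v = 0 ↔ r ^ (i + 1) ∣ x := by
  let I : Ideal F[X] :=
    { carrier := {x | aeval φ x v = 0}
      add_mem' := fun {a b} (ha : _ = _) (hb : _ = _) => by simp [ha, hb]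
      zero_mem' := by simp
      smul_mem' := fun c x (hx : _ = _) => by simp [hx] }
  refine ⟨fun h => by_contra fun e => h2 ?_, fun ⟨y, hy⟩ => by simp [hy, mul_comm _ y, -map_pow, h1]⟩
  rw [← mul_one (r ^ i)]
  exact pow_mul_mem_of_not_dvd I hr (t := 1) (by rwa [mul_one]) h e

namespace Form

variable [FiniteDimensional F V]

/-- the stabilizer of a subspace in the special isometry group -/
noncomputable abbrev sst {P : Param F} (f : Form P V) (S : Submodule F V) : Subgroup f.SIsom :=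
  stabF f.SIsom (· ∈ S)

theorem Isom.mem_iff {P : Param F} {f : Form P V} {g : f.Isom} {S : Submodule F V}
    (h : ∀ x ∈ S, g.1 x ∈ S) (x : V) : (g.1 x ∈ S) = (x ∈ S) :=
  propext ⟨fun hx => by simpa [Isom.inv_apply] using Isom.inv_mem h _ hx, h x⟩

variable [Fintype F] {q : ℕ} {hF : Fintype.card F = q ^ 2} {f : Form (uP hF) V}

theorem Nondeg.exists_su_map (hf : f.Nondeg) {S T : Submodule F V} (y : f.Isom)
    (hy : S.map (y.1 : V →ₗ[F] V) = T)
    (hk : ∀ c, c * frobq hF c = 1 → ∃ k : f.Isom, (f.detHom k : F) = c ∧ ∀ x ∈ T, k.1 x ∈ T) :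
    ∃ x : f.SIsom, ∀ v, (x • v ∈ T) = (v ∈ S) := by
  obtain ⟨k, h1, h2⟩ := hk _ (hf.det_mul_σ_det y⁻¹)
  refine ⟨⟨k * y, by rw [SIsom, MonoidHom.mem_ker, map_mul, Units.ext h1, ← map_mul, inv_mul_cancel,
    map_one]⟩, fun v => (Isom.mem_iff h2 _).trans ?_⟩
  rw [← hy]
  exact propext (Submodule.mem_map_equiv (e := y.1) S |>.trans (by simp))

theorem Nondeg.center_le_sst (hf : f.Nondeg) (h : 2 ≤ finrank F V) (S : Submodule F V) :
    Subgroup.center f.SIsom ≤ f.sst S := fun z hz => by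
  obtain ⟨c, hc⟩ := (hf.su_mem_center_iff h z).1 hz
  exact Isom.mem_iff fun x hx => hc x ▸ S.smul_mem c hx

theorem Nondeg.exists_su_pt (hf : f.Nondeg) {v w : V} (hv : f.B v v ≠ 0) (hw : f.B w w ≠ 0) :
    ∃ x : f.SIsom, ∀ y, (x • y ∈ F ∙ w) = (y ∈ F ∙ v) := by
  obtain ⟨a, ha⟩ := exists_norm_eq hF (c := f.B w w / f.B v v) (by
    rw [map_div₀, ← f.unit_symm, ← f.unit_symm])
  have h0 : a ≠ 0 := fun e => div_ne_zero hw hv (by rw [← ha, e, zero_mul])
  have h1 : f.B (a • v) (a • v) = f.B w w := by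
    rw [B_smul_left, unit_B_smul_right, ← mul_assoc, ha, div_mul_cancel₀ _ hv]
  obtain ⟨y, hy⟩ := hf.witt_one (x := a • v) (y := w) (fun e => hw (by simp [← h1, e]))
    (fun e => hw (by simp [e])) h1 (by rw [unit_Q, unit_Q, h1])
  refine hf.exists_su_map y (by
    rw [← Submodule.span_singleton_smul_eq h0.isUnit, Submodule.map_span, Set.image_singleton]
    exact congrArg _ (congrArg _ hy)) fun c hc => ?_
  have hg := f.comap_toSpanSingleton_nondeg hw
  refine ⟨hf.extHom hg _ (f.isIsom_comap _) (scalar _ c hc), ?_, fun x hx => ?_⟩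
  · rw [hf.detHom_extHom]
    exact (detHom_scalar _ c hc).trans (by simp)
  · obtain ⟨b, rfl⟩ := Submodule.mem_span_singleton.1 hx
    exact (hf.extHom_apply_left hg _ _ _ b).symm ▸ Submodule.mem_span_singleton.2 ⟨_, rfl⟩

theorem Nondeg.exists_pt (hf : f.Nondeg) (h : 2 ≤ finrank F V) :
    ∃ w, f.sst (F ∙ w) ≠ ⊤ ∧ ∀ (g : f.SIsom) v, f.B v v ≠ 0 → g.1.1 v ∈ F ∙ v →
      ∃ y ∈ f.sst (F ∙ w), IsConj g y := by
  obtain ⟨b, h1, h2⟩ := hf.unit_exists_orthonormal 2 h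
  refine ⟨b 0, fun e => ?_, fun g v hv hg => ?_⟩
  · obtain ⟨x, hx⟩ := hf.exists_su_pt (h1.diag 1) (h1.diag 0)
    obtain ⟨a, ha⟩ := Submodule.mem_span_singleton.1 ((e.ge (Subgroup.mem_top x) _).mp
      ((hx _).mpr (Submodule.mem_span_singleton_self _)))
    exact h1.diag 1 (by nth_rw 1 [← ha]; rw [B_smul_left, h1.ne 0 1 (by decide), mul_zero])
  · obtain ⟨x, hx⟩ := hf.exists_su_pt hv (h1.diag 0)
    refine exists_stabF (Q' := (· ∈ F ∙ v)) (Isom.mem_iff fun x hx => ?_) x hx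
    obtain ⟨a, rfl⟩ := Submodule.mem_span_singleton.1 hx
    rw [map_smul]
    exact Submodule.smul_mem _ _ hg

theorem Nondeg.exists_cyc_top (hf : f.Nondeg) [Nontrivial V] (g : f.Isom)
    (hI : ∀ S : Submodule F V, (∀ x ∈ S, g.1 x ∈ S) → Disjoint S (f.orth S) → S = ⊥ ∨ S = ⊤) :
    ∃ (r t : F[X]) (i : ℕ) (v : V), r.Monic ∧ Irreducible r ∧ r.coeff 0 ≠ 0 ∧ IsCoprime r t ∧
      ((t = 1 ∧ dl (uP hF) r = r) ∨ t = dl (uP hF) r) ∧
      LinearMap.range (evalAt (g.1 : V →ₗ[F] V) v) = ⊤ ∧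
      (∀ x, aeval (g.1 : V →ₗ[F] V) x v = 0 ↔ (r * t) ^ (i + 1) ∣ x) ∧
      aeval (g.1 : V →ₗ[F] V) ((r * t) ^ (i + 1)) = 0 ∧
      (i + 1) * (r.natDegree + t.natDegree) = finrank F V := by
  obtain ⟨⟨r, j⟩, hr⟩ := Multiset.exists_mem_of_ne_zero (s := tp (g.1 : V →ₗ[F] V)) fun e => by
    have := wt_tp (g.1 : V →ₗ[F] V)
    rw [e] at this
    exact finrank_pos.ne this
  obtain ⟨hm, hi, hj⟩ : r.Monic ∧ Irreducible r ∧ 0 < j := valid_tp _ _ hr
  obtain ⟨i, rfl⟩ : ∃ i, j = i + 1 := ⟨j - 1, by omega⟩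
  have h0 : r.coeff 0 ≠ 0 := coeff_zero_ne_of_mem_tp g.1 hr
  obtain ⟨t, htm, hc, ht⟩ : ∃ t : F[X], t.Monic ∧ IsCoprime r t ∧
      ((t = 1 ∧ dl (uP hF) r = r) ∨ t = dl (uP hF) r) := by
    by_cases e : dl (uP hF) r = r
    · exact ⟨1, monic_one, isCoprime_one_right, Or.inl ⟨rfl, e⟩⟩
    · exact ⟨_, monic_dl h0, hi.coprime_iff_not_dvd.2 fun h => e (eq_of_monic_of_associated
        (monic_dl h0) hm (hi.associated_of_dvd (irreducible_dl hm h0 hi) h).symm), Or.inr rfl⟩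
  obtain ⟨v, h1, h2⟩ := hf.exists_cyc (frobq_ne hF) g hr hc ht
  have h3 : ∀ y, aeval (g.1 : V →ₗ[F] V) ((r * t) ^ (i + 1) * y) v = 0 := fun y => by
    rw [mul_comm, map_mul, Module.End.mul_apply, h1, map_zero]
  have h4 : ∀ x, aeval (g.1 : V →ₗ[F] V) x v = 0 ↔ (r * t) ^ (i + 1) ∣ x := fun x =>
    ⟨fun h => h2 x fun y => by rw [h, B_zero_left], fun ⟨y, hy⟩ => hy ▸ h3 y⟩
  have h5 := finrank_range_evalAt h4
  rw [natDegree_pow, hm.natDegree_mul htm] at h5
  have h6 : LinearMap.range (evalAt (g.1 : V →ₗ[F] V) v) = ⊤ := by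
    refine (hI _ ?_ (Submodule.disjoint_def.2 ?_)).resolve_left fun e => ?_
    · rintro _ ⟨y, rfl⟩; exact ⟨X * y, by simp [evalAt_apply]⟩
    · rintro _ ⟨x, rfl⟩ hx
      exact (h4 x).2 (h2 x fun y => hx _ ⟨y, rfl⟩)
    · have := hi.natDegree_pos
      rw [e, finrank_bot] at h5
      exact absurd h5 (by positivity)
  refine ⟨r, t, i, v, hm, hi, h0, hc, ht, h6, h4, LinearMap.ext fun y => ?_, by rw [← h5, h6, finrank_top]⟩
  obtain ⟨x, rfl⟩ := LinearMap.range_eq_top.1 h6 y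
  rw [evalAt_apply, ← Module.End.mul_apply, ← map_mul, h3]
  rfl

theorem Nondeg.exists_period (hf : f.Nondeg) [Nontrivial V] (g : f.Isom) :
    ∃ α ∈ Isom.ev g, ∃ k, 0 < k ∧ orb (psi q) α k ≤ Isom.ev g ∧ (orb (psi q) α k).Nodup ∧
      k ≤ finrank F V ∧ (psi q)^[k] α = α ∧ ∀ m, k ∣ 2 * m → α ^ Fintype.card F ^ m = α := by
  classical
  have hR := map_psi_iff.2 (hf.unit_ev_dual hF g)
  obtain ⟨α, hα⟩ := Multiset.card_pos_iff_exists_mem.1 ((Isom.card_ev g).symm ▸ finrank_pos)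
  have hψ := psi_injective (pow_q_injective hF)
  have h := (le_self_nsmul zero_le (Multiset.count_ne_zero.2 hα)).trans (nsmul_orb_le hψ hR α)
  refine ⟨α, hα, _, minimalPeriod_pos hψ hR hα, h, nodup_orb, by
    simpa [Isom.card_ev] using Multiset.card_le_card h, Function.iterate_minimalPeriod, fun m hm => ?_⟩
  have := (Function.isPeriodicPt_iff_minimalPeriod_dvd.2 hm).eq
  rwa [psi_iterate, pow_mul, neg_sq, ← Nat.cast_pow, ← hF, ← Nat.cast_pow, zpow_natCast] at this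

omit [FiniteDimensional F V] in
theorem _root_.Cfsg.Agent.Forms.natDegree_dvd_of_pow_eq {r : F[X]} (hr : Irreducible r) {α : Kc F}
    (h : aeval α r = 0) {m : ℕ} (hm : α ^ Fintype.card F ^ m = α) : r.natDegree ∣ m :=
  hr.natDegree_dvd_of_dvd_X_pow_card_pow_sub_X ((hr.dvd_iff_aeval_eq_zero h).1 (by simp [hm]))

theorem Nondeg.su4_cases (hf : f.Nondeg) (h4 : finrank F V = 4) (g : f.Isom) :
    (∃ v, f.B v v ≠ 0 ∧ g.1 v ∈ F ∙ v) ∨
      ∃ S : Submodule F V, (∀ x ∈ S, g.1 x ∈ S) ∧ f.orth S = S := by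
  haveI : Nontrivial V := finrank_pos_iff.1 (by omega : 0 < finrank F V)
  have k1 : ∀ S : Submodule F V, (∀ x ∈ S, g.1 x ∈ S) → Disjoint S (f.orth S) → finrank F S ≠ 0 →
      finrank F S ≤ 2 → ∃ v ∈ S, v ≠ 0 ∧ g.1 v ∈ F ∙ v := fun S h1 h2 h3 h5 => by
    haveI : Nontrivial S := finrank_pos_iff.1 (by omega : 0 < finrank F S)
    obtain ⟨α, a1, k, a2, -, -, a3, -, a4⟩ :=
      ((f.restrict_nondeg_iff S).2 h2).exists_period (Isom.restrict g S h1)
    obtain ⟨c, rfl⟩ := mem_range_of_pow_card ((pow_one (Fintype.card F) ▸ a4 1) (by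
      obtain rfl | rfl : k = 1 ∨ k = 2 := by omega
      all_goals decide))
    obtain ⟨v, b1, b2⟩ := algebraMap_mem_ev_iff.1 a1
    exact ⟨v, v.2, fun e => b1 (Subtype.ext e),
      Submodule.mem_span_singleton.2 ⟨c, congrArg Subtype.val b2.symm⟩⟩
  have k2 : ∀ S : Submodule F V, (∀ x ∈ S, g.1 x ∈ S) → Disjoint S (f.orth S) → finrank F S = 1 →
      ∃ v, f.B v v ≠ 0 ∧ g.1 v ∈ F ∙ v := fun S h1 h2 h3 => by
    obtain ⟨v, b1, b2, b3⟩ := k1 S h1 h2 (by omega) (by omega)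
    refine ⟨v, fun e => b2 (Submodule.disjoint_def.1 h2 v b1 ?_), b3⟩
    rw [← Submodule.eq_of_le_of_finrank_eq ((Submodule.span_singleton_le_iff_mem v S).2 b1)
      (by rw [finrank_span_singleton b2, h3])]
    exact mem_orth_singleton.2 e
  by_cases hI : ∀ S : Submodule F V, (∀ x ∈ S, g.1 x ∈ S) → Disjoint S (f.orth S) → S = ⊥ ∨ S = ⊤
  · obtain ⟨r, t, i, v, hm, hi, h0, hc, ht, h5, h6, h7, h8⟩ := hf.exists_cyc_top g hI
    have hk : ∀ a : F[X], ∀ x ∈ LinearMap.ker (aeval (g.1 : V →ₗ[F] V) a),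
        g.1 x ∈ LinearMap.ker (aeval (g.1 : V →ₗ[F] V) a) := fun a x hx => by
      rw [LinearMap.mem_ker, Isom.aeval_comm, LinearMap.mem_ker.1 hx, map_zero]
    have hz : ∀ j, (r ^ j).coeff 0 ≠ 0 := fun j => by
      rw [← constantCoeff_apply, map_pow]; exact pow_ne_zero _ h0
    right
    rcases ht with ⟨rfl, h⟩ | rfl
    · rw [mul_one] at h6 h7
      rw [natDegree_one, add_zero, h4] at h8
      obtain ⟨j, hj | hj⟩ := (i + 1).even_or_odd'
      · refine ⟨_, hk (r ^ j), ?_⟩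
        nth_rw 1 [← h]
        rw [← map_pow, hf.orth_ker_aeval g (hz j)]
        rw [hj, two_mul, pow_add] at h6 h7
        refine le_antisymm (LinearMap.range_le_ker_iff.2 (by rw [← h7, map_mul]; rfl)) fun y hy => ?_
        obtain ⟨x, rfl⟩ := LinearMap.range_eq_top.1 h5 y
        obtain ⟨z, rfl⟩ := (mul_dvd_mul_iff_left (pow_ne_zero j hi.ne_zero)).1
          ((h6 (r ^ j * x)).1 (by rw [map_mul]; exact hy))
        exact ⟨aeval (g.1 : V →ₗ[F] V) z v, by rw [evalAt_apply, map_mul]; rfl⟩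
      · obtain rfl : i = 0 := by
          have := Nat.le_of_dvd (by omega) (Dvd.intro _ h8)
          have : j ≠ 1 := by rintro rfl; rw [hj] at h8; omega
          omega
        obtain ⟨α, a1, k, a2, -, -, a3, -, a4⟩ := hf.exists_period g
        have h9 := fun m hm => natDegree_dvd_of_pow_eq hi
          (aeval_eq_zero_of_mem_ev (by simpa using h7) a1) (a4 m hm)
        rw [show r.natDegree = 4 by omega] at h9
        obtain rfl | rfl | rfl | rfl : k = 1 ∨ k = 2 ∨ k = 3 ∨ k = 4 := by omega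
        exacts [absurd (h9 1 (by decide)) (by decide), absurd (h9 1 (by decide)) (by decide),
          absurd (h9 3 (by decide)) (by decide), absurd (h9 2 (by decide)) (by decide)]
    · refine ⟨_, hk (dl (uP hF) (r ^ (i + 1))), ?_⟩
      rw [hf.orth_ker_aeval g (hz _), map_pow (dl _)]
      rw [mul_pow] at h7
      refine le_antisymm (LinearMap.range_le_ker_iff.2 (by rw [← h7, mul_comm, map_mul]; rfl))
        fun y hy => ?_
      obtain ⟨α, β, e⟩ := hc.pow (m := i + 1) (n := i + 1)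
      refine ⟨aeval (g.1 : V →ₗ[F] V) α y, ?_⟩
      have := LinearMap.congr_fun (congrArg (aeval (g.1 : V →ₗ[F] V)) e) y
      rw [mul_comm α] at this
      simpa [-map_pow, LinearMap.mem_ker.1 hy] using this
  push Not at hI
  obtain ⟨S, h1, h2, h3, h5⟩ := hI
  have h6 := Submodule.finrank_lt h5
  have h7 := hf.finrank_add_orth S
  have h8 : finrank F S ≠ 0 := fun e => h3 (Submodule.finrank_eq_zero.1 e)
  have h9 := Isom.orth_invariant g h1
  have h10 := hf.disjoint_orth_orth h2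
  obtain h | h | h : finrank F S = 1 ∨ finrank F (f.orth S) = 1 ∨ finrank F S = 2 := by omega
  · exact .inl (k2 S h1 h2 h)
  · exact .inl (k2 _ h9 h10 h)
  obtain ⟨v, a1, a2, a3⟩ := k1 S h1 h2 h8 h.le
  obtain ⟨w, b1, b2, b3⟩ := k1 _ h9 h10 (by omega) (by omega)
  by_cases e : f.B v v = 0
  · by_cases e' : f.B w w = 0
    · have h11 : ∀ u : V, g.1 u ∈ F ∙ u → ∀ x ∈ F ∙ u, g.1 x ∈ F ∙ u := fun u hu x hx => by
        obtain ⟨a, rfl⟩ := Submodule.mem_span_singleton.1 hx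
        rw [map_smul]
        exact Submodule.smul_mem _ _ hu
      refine .inr ⟨(F ∙ v) ⊔ F ∙ w, fun x hx => ?_, (Submodule.eq_of_le_of_finrank_eq ?_ ?_).symm⟩
      · obtain ⟨a, ha, b, hb, rfl⟩ := Submodule.mem_sup.1 hx
        rw [map_add]
        exact Submodule.add_mem_sup (h11 v a3 a ha) (h11 w b3 b hb)
      · simp [orth_sup, mem_orth_singleton, e, e', b1 v a1, f.B_eq_zero_symm (b1 v a1)]
      · have := hf.finrank_add_orth ((F ∙ v) ⊔ F ∙ w)
        have := Submodule.finrank_sup_add_finrank_inf_eq (F ∙ v) (F ∙ w)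
        rw [finrank_span_singleton a2, finrank_span_singleton b2, (h2.mono
          ((Submodule.span_singleton_le_iff_mem _ _).2 a1)
          ((Submodule.span_singleton_le_iff_mem _ _).2 b1)).eq_bot, finrank_bot] at this
        omega
    · exact .inl ⟨w, e', b3⟩
  · exact .inl ⟨v, e, a3⟩

theorem Nondeg.covZ_su4 (hf : f.Nondeg) (h4 : finrank F V = 4) : CovZ f.SIsom := by
  obtain ⟨w, h1, h2⟩ := hf.exists_pt (by omega)
  have h3 := hf.center_le_sst (by omega)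
  by_cases e : ∃ T : Submodule F V, f.orth T = T
  swap
  · exact ⟨_, _, h1, h1, h3 _, h3 _, fun g => .inl ((hf.su4_cases h4 g).elim
      (fun ⟨v, a, b⟩ => h2 g v a b) fun ⟨S, _, h⟩ => absurd ⟨S, h⟩ e)⟩
  obtain ⟨T, hT⟩ := e
  have h5 : ∀ S : Submodule F V, f.orth S = S → finrank F S = 2 := fun S h => by
    have := hf.finrank_add_orth S
    rw [h] at this
    omega
  obtain ⟨u, hu, h0⟩ := T.exists_mem_ne_zero_of_ne_bot fun e => by
    have := h5 T hT
    rw [e, finrank_bot] at this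
    omega
  have h6 : f.Q u = 0 := (f.unit_Q u).trans (hT.ge hu u hu)
  obtain ⟨e, he⟩ := hf.exists_hypPair h6 h0
  refine ⟨_, f.sst T, h1, fun h => ?_, h3 _, h3 _, fun g => (hf.su4_cases h4 g).imp
    (fun ⟨v, a, b⟩ => h2 g v a b) fun ⟨S, a, b⟩ => ?_⟩
  · obtain ⟨l, hl0, hl⟩ := f.unit_exists_isLam_zero
    have := (h.ge (Subgroup.mem_top (G := f.SIsom) ⟨_, eichler_mem_SIsom e 0 l he.Qe
      (f.B_zero_left e) hl⟩) u).mpr hu
    have := hT.ge this u hu
    change f.B ((f.eichler e 0 l he.Qe (f.B_zero_left e) hl).1 u) u = 0 at this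
    simp [eichler_apply, he.Buu, he.Bue, he.Beu, hl0] at this
  · let φ := LinearEquiv.ofFinrankEq S T ((h5 S b).trans (h5 T hT).symm)
    obtain ⟨y, hy⟩ := hf.witt S (T.subtype ∘ₗ φ.toLinearMap) (T.injective_subtype.comp φ.injective)
      (unit_isIsom fun x y => (hT.ge (φ x).2 _ (φ y).2).trans (b.ge x.2 _ y.2).symm)
    obtain ⟨x, hx⟩ := hf.exists_su_map (S := S) (T := T) y (Submodule.eq_of_le_of_finrank_eq
      (by rintro _ ⟨x, hx, rfl⟩; exact (hy ⟨x, hx⟩).symm ▸ (φ ⟨x, hx⟩).2)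
      ((LinearEquiv.finrank_map_eq _ _).trans φ.finrank_eq)) fun c hc => by
        obtain ⟨l, hl0, hl⟩ := exists_lam hF ⟨Units.mk0 c (left_ne_zero_of_mul_eq_one hc),
          (mem_mu hF).2 hc⟩
        refine ⟨he.hscale l hl0, (MI.det_hscale he l hl0).trans ((mul_inv_eq_iff_eq_mul₀
          ((_root_.map_ne_zero _).2 hl0)).2 hl), fun x hx => ?_⟩
        rw [he.hscale_apply, hT.ge hx u hu, mul_zero, zero_smul, add_zero]
        exact add_mem hx (T.smul_mem _ hu)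
    exact exists_stabF (Q' := (· ∈ S)) (Isom.mem_iff a) x hx

omit [Fintype F] in
theorem exists_equiv_of_reg {P : Param F} {f : Form P V} (h3 : finrank F V = 3) {g k : f.Isom}
    (a1 : Isom.N g ^ 3 = 0) (a2 : Isom.N g ^ 2 ≠ 0) (b1 : Isom.N k ^ 3 = 0) (b2 : Isom.N k ^ 2 ≠ 0) :
    ∃ e : V ≃ₗ[F] V, ∀ y, e (g.1 y) = k.1 (e y) := by
  have key : ∀ g : f.Isom, Isom.N g ^ 3 = 0 → Isom.N g ^ 2 ≠ 0 → ∃ v,
      LinearMap.range (evalAt (g.1 : V →ₗ[F] V) v) = ⊤ ∧
        ∀ x : F[X], aeval (g.1 : V →ₗ[F] V) x v = 0 ↔ (X - C 1) ^ (2 + 1) ∣ x := fun g a1 a2 => by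
    obtain ⟨v, hv⟩ := DFunLike.ne_iff.1 a2
    have h := aeval_eq_zero_iff_pow_dvd (φ := (g.1 : V →ₗ[F] V)) (v := v) (i := 2)
      (irreducible_X_sub_C 1) (by simpa [Isom.N] using LinearMap.congr_fun a1 v) (by simpa [Isom.N] using hv)
    exact ⟨v, Submodule.eq_top_of_finrank_eq (by
      rw [finrank_range_evalAt h, natDegree_pow, natDegree_X_sub_C, h3]), h⟩
  obtain ⟨v, h1, h2⟩ := key g a1 a2
  obtain ⟨w, h4, h5⟩ := key k b1 b2
  exact exists_equiv_of_cyc h1 h4 fun x => (h2 x).trans (h5 x).symm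

theorem Nondeg.covZ_su3 (hf : f.Nondeg) (h3 : finrank F V = 3) {a : ℕ} (ha : 1 ≤ a)
    (hq : q = 3 ^ a) : CovZ f.SIsom := by
  haveI : Nontrivial V := finrank_pos_iff.1 (by omega : 0 < finrank F V)
  haveI : CharP F 3 := by
    obtain ⟨p, k, hp, hc, hk, e⟩ := exists_char_pow hF
    obtain rfl : p = 3 := (Nat.prime_dvd_prime_iff_eq hp Nat.prime_three).1
      (hp.dvd_of_dvd_pow (hq ▸ e ▸ dvd_pow_self p (by omega)))
    exact hc
  have hq3 : 3 ≤ q := hq ▸ Nat.le_self_pow (by omega) 3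
  have hψ := psi_injective (pow_q_injective hF)
  obtain ⟨ζ, z1, z2, z3⟩ := exists_primRoot_of_dvd_qu hF (N := gsu q 3) (k := 3) (by omega)
    (Dvd.intro_left _ (succ_mul_gsu q 3))
  have z4 : psi q ζ ≠ ζ := fun e => by
    have h := Nat.le_of_dvd (by omega) ((z1.pow_eq_one_iff_dvd _).1 ((psi_eq_self_iff z2).1 e))
    have h' := succ_mul_gsu q 3
    rw [qu_of_odd (by decide)] at h'
    nlinarith
  obtain ⟨s, s1, s2⟩ := (realz_unit_ss hF (p := 3) (R := orb (psi q) ζ 3)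
    (fun h => ne_zero_of_mem_orb_psi z2 h rfl) (map_psi_iff.1 (map_orb z3))).exists_unit hf
      (by simp [h3])
  lift s to f.SIsom using Isom.mem_SIsom_iff.2 (s1 ▸ (prod_orb_psi_eq_one_iff z2 3).2 z1.pow_eq_one)
  have s3 : ∀ m, Isom.ev (s ^ m).1 = orb (psi q) (ζ ^ m) 3 := fun m => by
    rw [Subgroup.coe_pow, Isom.ev_pow, s1, orb, orb, Multiset.map_map]
    exact Multiset.map_congr rfl fun j _ => psi_iterate_pow q ζ m j
  have s4 : ∀ m, pexp 3 (s ^ m).1 = 0 := fun m => (pexp_eq_zero_iff 3 (Isom.orderOf_pos _)).2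
    (((pexp_eq_zero_iff 3 (Isom.orderOf_pos _)).1 s2).coprime_dvd_left (orderOf_pow_dvd m))
  have s5 : ∀ m, s ^ m = 1 ↔ ζ ^ m = 1 := fun m => by
    rw [Subtype.ext_iff, Subgroup.coe_pow, Subgroup.coe_one, Isom.pow_eq_one_iff 3, s1, s2]
    refine ⟨fun h => h.1 ζ (self_mem_orb (by omega)), fun h => ⟨fun β hβ => ?_, by simp⟩⟩
    obtain ⟨j, -, rfl⟩ := mem_orb.1 hβ
    rw [psi_iterate_pow, h, psi_iterate, one_zpow]
  haveI := f.finite_isom
  have s6 : ∀ t ∈ Subgroup.normalizer (Subgroup.zpowers s : Set f.SIsom), 2 ≤ finrank F (Isom.fix t.1) → Commute t s := by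
    intro t ht h
    obtain ⟨m, hm⟩ := mem_powers_iff_mem_zpowers.2 (mul_mem ((Subgroup.mem_normalizer_iff.1 ht s).1
      (Subgroup.mem_zpowers s)) (inv_mem (Subgroup.mem_zpowers s)))
    have h1 := Submodule.finrank_sup_add_finrank_inf_eq (Isom.fix t.1) (Isom.fix (s.1 * t.1⁻¹ * s.1⁻¹))
    have h2 := (Isom.fix t.1 ⊔ Isom.fix (s.1 * t.1⁻¹ * s.1⁻¹)).finrank_le
    rw [Isom.fix_conj, LinearEquiv.finrank_map_eq, ← Isom.fix_conj, Isom.fix_inv] at h1
    obtain ⟨w, ⟨h4, h5⟩, h0⟩ := (Isom.fix t.1 ⊓ Isom.fix (s.1 * t.1⁻¹ * s.1⁻¹)).exists_mem_ne_zero_of_ne_bot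
      fun e => by rw [e, finrank_bot] at h1; omega
    have h6 : algebraMap F (Kc F) 1 ∈ Isom.ev (s ^ m).1 := algebraMap_mem_ev_iff.2 ⟨w, h0, by
      rw [show s ^ m = t * (s * t⁻¹ * s⁻¹) from hm.trans (by group), one_smul]
      exact (congrArg t.1.1 (Isom.mem_fix.1 h5)).trans (Isom.mem_fix.1 h4)⟩
    rw [s3, map_one] at h6
    obtain ⟨j, -, hj⟩ := mem_orb.1 h6
    have h7 := (s5 m).2 (hψ.iterate j (hj.trans (by rw [psi_iterate, one_zpow])))
    exact commutatorElement_eq_one_iff_commute.1 (hm.symm.trans h7)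
  obtain ⟨w, h1, h2⟩ := hf.exists_pt (by omega)
  refine ⟨_, Subgroup.normalizer (Subgroup.zpowers s : Set f.SIsom), h1, fun e => ?_, hf.center_le_sst (by omega) _,
    Subgroup.center_le_normalizer _, fun g => ?_⟩
  · obtain ⟨l, hl0, hl⟩ := f.unit_exists_isLam_zero
    obtain ⟨c, hc⟩ := hf.scalar_of_commute_transvection hl hl0 (hf.unit_exists_singular (by omega))
      s.1 fun u hu => congrArg Subtype.val (s6 ⟨_, eichler_mem_SIsom u 0 l hu (f.B_zero_left u) hl⟩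
        (e.ge (Subgroup.mem_top _)) (by
          have := hf.finrank_add_orth (F ∙ u)
          have := finrank_span_le_card (R := F) ({u} : Set V)
          have := Submodule.finrank_mono (show f.orth (F ∙ u) ≤ Isom.fix (f.eichler u 0 l hu
            (f.B_zero_left u) hl) from fun x hx => Isom.mem_fix.2
              (eichler_apply_of_orth _ _ _ _ _ _ _ (mem_orth_singleton.1 hx) (f.B_zero_right x)))
          simp at *
          omega)).symm.eq
    have := (Isom.pow_eq_smul_iff 3 s.1 1 c).1 (by simpa using hc)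
    simp only [s1, pow_one] at this
    exact z4 ((this.1 _ (mem_orb.2 ⟨1, by omega, rfl⟩)).trans (this.1 _ (self_mem_orb (by omega))).symm)
  by_cases hI : ∀ S : Submodule F V, (∀ x ∈ S, g.1.1 x ∈ S) → Disjoint S (f.orth S) → S = ⊥ ∨ S = ⊤
  swap
  · push Not at hI
    obtain ⟨S, a1, a2, a3, a4⟩ := hI
    have k2 : ∀ S : Submodule F V, (∀ x ∈ S, g.1.1 x ∈ S) → Disjoint S (f.orth S) →
        finrank F S = 1 → ∃ y ∈ f.sst (F ∙ w), IsConj g y := fun S b1 b2 b3 => by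
      obtain ⟨v, c1, c2⟩ := S.exists_mem_ne_zero_of_ne_bot fun e => by
        rw [e, finrank_bot] at b3; omega
      obtain rfl := Submodule.eq_of_le_of_finrank_eq ((Submodule.span_singleton_le_iff_mem v S).2 c1)
        (by rw [finrank_span_singleton c2, b3])
      exact h2 g v (fun e => c2 (Submodule.disjoint_def.1 b2 v c1 (mem_orth_singleton.2 e))) (b1 v c1)
    have h6 := Submodule.finrank_lt a4
    have h7 := hf.finrank_add_orth S
    have h8 : finrank F S ≠ 0 := fun e => a3 (Submodule.finrank_eq_zero.1 e)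
    obtain h | h : finrank F S = 1 ∨ finrank F (f.orth S) = 1 := by omega
    exacts [.inl (k2 S a1 a2 h), .inl (k2 _ (Isom.orth_invariant g.1 a1) (hf.disjoint_orth_orth a2) h)]
  right
  obtain ⟨α, a1, k, a2, a3, a4, a5, a6, a7⟩ := hf.exists_period g.1
  by_cases hk : k = 3
  · subst hk
    have h4 := Multiset.eq_of_le_of_card_le a3 (by simp [Isom.card_ev, h3])
    haveI := NeZero.mk (gsu_pos hF (k := 3) (by omega)).ne'
    obtain ⟨m, -, rfl⟩ := z1.eq_pow_of_pow_eq_one ((prod_orb_psi_eq_one_iff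
      (Isom.ne_zero_of_mem_ev a1) 3).1 (h4 ▸ Isom.mem_SIsom_iff.1 g.2))
    refine ⟨s ^ m, Subgroup.le_normalizer (pow_mem (Subgroup.mem_zpowers s) m),
      hf.su_isConj 3 ?_ (s4 m) (h4.symm.trans (s3 m).symm)⟩
    classical
    exact Nat.le_zero.1 ((pexp_coe 3 g.1).symm.trans_le (pexp_le 3 g.1.1 fun β _ =>
      Multiset.nodup_iff_count_le_one.1 (show (Isom.ev g.1).Nodup from h4 ▸ a4) β))
  obtain ⟨r, t, i, v, hm, hi, h0, hc, ht, h5, h6, h7, h8⟩ := hf.exists_cyc_top g.1 hI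
  obtain rfl : t = 1 := by
    rcases ht with h | rfl
    · exact h.1
    · rw [natDegree_dl h0, ← two_mul, mul_left_comm] at h8
      omega
  rw [mul_one] at h6 h7
  have h9 : r.natDegree = 1 := Nat.dvd_one.1 (natDegree_dvd_of_pow_eq hi (pow_eq_zero_iff
    (Nat.succ_ne_zero i) |>.1 (by simpa using aeval_eq_zero_of_mem_ev h7 a1)) (a7 1 (by
      obtain rfl | rfl : k = 1 ∨ k = 2 := by omega
      all_goals decide)))
  obtain rfl : i = 2 := by rw [h9, natDegree_one] at h8; omega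
  obtain ⟨c, rfl⟩ : ∃ c, r = X - C c := ⟨-r.coeff 0, by simpa using hm.eq_X_add_C h9⟩
  obtain rfl : c = 1 := by
    have h10 : Isom.ev g.1 = Multiset.replicate 3 (algebraMap F _ c) := Multiset.eq_replicate.2
      ⟨by rw [Isom.card_ev, h3], fun β hβ => by simpa [sub_eq_zero] using aeval_eq_zero_of_mem_ev h7 hβ⟩
    have := Isom.mem_SIsom_iff.1 g.2
    rw [h10, Multiset.prod_replicate] at this
    exact (algebraMap F (Kc F)).injective ((eq_one_of_pow_char_pow 3 (k := 1) this).trans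
      (map_one _).symm)
  obtain ⟨x, hx⟩ := isConj_iff.1 (hf.su_isConj 3 s2 (s4 (Fintype.card F)) (by
    have : ∀ b : Kc F, orb (psi q) (psi q b) 3 = (orb (psi q) b 3).map (psi q) := fun b => by
      rw [orb, orb, Multiset.map_map]
      exact Multiset.map_congr rfl fun j _ => (Function.Commute.iterate_self (psi q) j).eq b
    rw [s3, s1, show ζ ^ Fintype.card F = psi q (psi q ζ) by simp [psi, ← pow_mul, hF, sq], this, this,
      map_orb z3, map_orb z3]))
  obtain ⟨N, b1, b2⟩ := exists_orderOf_eq 3 (orderOf_pos x)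
  have b3 : ∀ n, x ^ n * s * (x ^ n)⁻¹ = s ^ Fintype.card F ^ n := fun n => by
    induction n with
    | zero => simp
    | succ n ih => rw [pow_succ _ n, pow_succ' _ n, pow_mul, ← hx, conj_pow, ← ih]; group
  have b4 : x ^ N ∈ Subgroup.normalizer (Subgroup.zpowers s : Set f.SIsom) :=
    pow_mem (Subgroup.mem_normalizer_fintype (by
      rintro _ ⟨j, rfl⟩
      exact ⟨Fintype.card F * j, by simp [zpow_mul, ← hx]⟩)) N
  have b5 : Isom.N (x ^ N).1 ^ 3 = 0 := Isom.N_pow_eq_zero (fun β hβ =>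
    eq_one_of_pow_char_pow 3 (((Isom.pow_eq_one_iff 3 _ (3 ^ pexp 3 x)).1 (by
      rw [← Subgroup.coe_pow, ← pow_mul, mul_comm, ← b2, pow_orderOf_eq_one]; rfl)).1 β hβ)) h3.le
  have b6 : Isom.N (x ^ N).1 ^ 2 ≠ 0 := fun e => by
    have c1 := Isom.finrank_res_add_fix (x ^ N).1
    have c2 : finrank F (Isom.res (x ^ N).1) ≤ finrank F (Isom.fix (x ^ N).1) :=
      Submodule.finrank_mono (LinearMap.range_le_ker_iff.2 (by rwa [sq] at e))
    have c3 := b3 N
    rw [(s6 _ b4 (by omega)).eq, mul_inv_cancel_right,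
      ← Nat.sub_add_cancel (Nat.one_le_pow N _ Fintype.card_pos), pow_succ, right_eq_mul, s5] at c3
    refine z4 ((Nat.coprime_mul_iff_left.2 ⟨(by decide : Nat.Coprime 2 3), b1⟩).gcd_eq_one ▸
      Function.IsPeriodicPt.gcd (show (psi q)^[2 * N] ζ = ζ from ?_) z3 :
        Function.IsPeriodicPt (psi q) 1 ζ)
    rw [psi_iterate, pow_mul, neg_sq, ← Nat.cast_pow, ← hF, ← Nat.cast_pow, zpow_natCast,
      ← Nat.sub_add_cancel (Nat.one_le_pow N _ Fintype.card_pos), pow_succ, c3, one_mul]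
  obtain ⟨e, he⟩ := exists_equiv_of_reg h3 (g := g.1) (by simpa [Isom.N] using h7) (fun e => by
    have := (h6 ((X - C 1) ^ 2)).1 (by simpa [Isom.N] using LinearMap.congr_fun e v)
    simpa using (pow_dvd_pow_iff hi.ne_zero hi.not_isUnit).1 this) b5 b6
  obtain ⟨z, d1, d2⟩ := hf.exists_B_equiv hf _ _ e he (.inl (frobq_ne hF))
  obtain ⟨y, hy⟩ := isConj_iff.1 (hf.isConj_of_B_conj _ _ z d1 d2)
  obtain ⟨c, hc⟩ := (surjective_frobenius F 3) (f.detHom y⁻¹ : F)
  have d3 : c * frobq hF c = 1 := (frobenius_inj F 3) (by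
    rw [map_mul, map_one, ← hf.det_mul_σ_det y⁻¹, ← hc]
    exact congrArg _ (map_pow _ _ _).symm)
  exact ⟨_, b4, isConj_SIsom y hy (f.scalar c d3) (f.scalar_commute _ _ _) (by
    rw [show f.detHom (f.scalar c d3) = f.detHom y⁻¹ from
      Units.ext ((detHom_scalar f c d3).trans (h3 ▸ hc)), ← map_mul, inv_mul_cancel, map_one])⟩

end Form

end Cfsg.Agent.Forms
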